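import Cfsg.Agent.H882.Ten.Form
set_option linter.all false

-- part: H882/Ten/Lem
section
/-!
# Lemmas on quadratic spaces of dimension at least 3 with a hyperbolic pair
-/

set_option autoImplicit false

namespace Cfsg.Agent.H882.Ten

open QuadraticMap hiding proj
open Cfsg.Agent.LieClassical.OrthCore Cfsg.Agent.LieClassical.OrthTrans

variable {F : Type*} {V : Type*} [Field F] [AddCommGroup V] [Module F V] {Q : QuadraticForm F V}

theorem exists_nonsing_perp (hQ : Nondeg Q) (hd : 3 ≤ Module.finrank F V) {x y : V} (h : Hyp Q x y) :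
    ∃ z, polar Q x z = 0 ∧ polar Q y z = 0 ∧ Q z ≠ 0 := by
  obtain ⟨a, c, h1, h2, h3, h4, h5⟩ := exists_perp2 hQ hd h
  rcases exists_nonsing h5 with h | h | h
  · exact ⟨a, h1, h2, h⟩
  · exact ⟨c, h3, h4, h⟩
  · exact ⟨a + c, by rw [polar_add_right, h1, h3, add_zero], by rw [polar_add_right, h2, h4, add_zero], h⟩

/-- Induction over `x` and its non-orthogonal singular vectors. -/
theorem op_ind {x y : V} (h : Hyp Q x y) {P : V → Prop} (hadd : ∀ a c, P a → P c → P (a + c))
    (hself : ∀ c : F, P (c • x)) (hop : ∀ a, Q a = 0 → polar Q x a ≠ 0 → P a) (v : V) : P v := by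
  set v' := proj Q x y v with hv'
  have hsing : Q (y + v' - Q v' • x) = 0 := sing_vec h.symm (polar_proj_right h v) (polar_proj_left h v)
  have hpol : polar Q x (y + v' - Q v' • x) = 1 := by
    rw [polar_sub_right, polar_add_right, polar_smul_right, h.polar_left, h.pair, hv', polar_proj_left h]
    simp
  have hy : ∀ c : F, P (c • y) := by
    intro c
    by_cases hc : c = 0
    · subst hc
      have := hself 0
      rwa [zero_smul] at this ⊢
    · refine hop _ (by rw [QuadraticMap.map_smul, h.right, smul_zero]) ?_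
      rw [polar_smul_right, h.pair, smul_eq_mul, mul_one]
      exact hc
  have e : v = ((y + v' - Q v' • x) + ((polar Q x v - 1) • y)) + (polar Q y v + Q v') • x := by
    rw [hv', proj]; module
  rw [e]
  exact hadd _ _ (hadd _ _ (hop _ hsing (by rw [hpol]; exact one_ne_zero)) (hy _)) (hself _)

/-- A third singular vector. -/
theorem exists_third (hQ : Nondeg Q) (hd : 3 ≤ Module.finrank F V) {x y : V} (h : Hyp Q x y) :
    ∃ z, Q z = 0 ∧ polar Q z x ≠ 0 ∧ polar Q z y ≠ 0 := by
  obtain ⟨a, h1, h2, h3⟩ := exists_nonsing_perp hQ hd h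
  refine ⟨x + a - Q a • y, sing_vec h h1 h2, ?_, ?_⟩
  · rw [polar_sub_left, polar_add_left, polar_smul_left, h.polar_left, polar_comm Q a x, h1, h.pair']
    simpa using h3
  · rw [polar_sub_left, polar_add_left, polar_smul_left, h.polar_right, polar_comm Q a y, h2, h.pair]
    simp

/-- If all singular vectors are eigenvectors of `κ` then `κ` is a scalar. -/
theorem scalar_of_sing (h2 : (2 : F) ≠ 0) (hQ : Nondeg Q) (hd : 3 ≤ Module.finrank F V) {x y : V}
    (h : Hyp Q x y) (κ : V →ₗ[F] V) (hκ : ∀ u, Q u = 0 → ∃ c : F, κ u = c • u) :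
    ∃ c : F, ∀ v, κ v = c • v := by
  obtain ⟨c, hc⟩ := hκ x h.left
  obtain ⟨c', hc'⟩ := hκ y h.right
  have key : ∀ z, polar Q x z = 0 → polar Q y z = 0 → κ z = c • z ∧ (Q z ≠ 0 → c' = c) := by
    intro z hxz hyz
    by_cases hz0 : z = 0
    · subst hz0
      refine ⟨by simp, fun h => absurd (QuadraticMap.map_zero Q) h⟩
    obtain ⟨z', hz'⟩ := hQ.exists_polar_eq hz0 1
    set z'' := proj Q x y z' with hz''
    have hzz : polar Q z z'' = 1 := by rw [hz'', polar_proj_of_perp hxz hyz, hz']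
    have hxz'' : polar Q x z'' = 0 := polar_proj_left h _
    have hyz'' : polar Q y z'' = 0 := polar_proj_right h _
    have s1 : Q (x + z - Q z • y) = 0 := sing_vec h hxz hyz
    have s2 : Q (x + (-z) - Q (-z) • y) = 0 :=
      sing_vec h (by rw [polar_neg_right, hxz, neg_zero]) (by rw [polar_neg_right, hyz, neg_zero])
    obtain ⟨a, ha⟩ := hκ _ s1
    obtain ⟨b, hb⟩ := hκ _ s2
    rw [QuadraticMap.map_neg] at hb
    simp only [map_sub, map_add, map_neg, map_smul, hc, hc'] at ha hb
    have e1 : κ z = a • z + (a - c) • x + (Q z * (c' - a)) • y := by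
      have : κ z = a • (x + z - Q z • y) - c • x + Q z • c' • y := by rw [← ha]; abel
      rw [this]; module
    have e2 : κ z = b • z - (b - c) • x - (Q z * (c' - b)) • y := by
      have : κ z = -(b • (x + -z - Q z • y) - c • x + Q z • c' • y) := by rw [← hb]; abel
      rw [this]; module
    have e3 : a • z + (a - c) • x + (Q z * (c' - a)) • y = b • z - (b - c) • x - (Q z * (c' - b)) • y := by
      rw [← e1, e2]
    have f1 := congrArg (polar Q z'') e3
    simp only [polar_add_right, polar_sub_right, polar_smul_right, polar_comm Q z'' z, polar_comm Q z'' x,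
      polar_comm Q z'' y, hzz, hxz'', hyz'', smul_eq_mul, mul_one, mul_zero, add_zero, sub_zero] at f1
    have f2 := congrArg (polar Q y) e3
    simp only [polar_add_right, polar_sub_right, polar_smul_right, hyz, h.pair', h.polar_right,
      smul_eq_mul, mul_one, mul_zero, add_zero, sub_zero, zero_add, zero_sub] at f2
    have f3 := congrArg (polar Q x) e3
    simp only [polar_add_right, polar_sub_right, polar_smul_right, hxz, h.pair, h.polar_left,
      smul_eq_mul, mul_one, mul_zero, add_zero, sub_zero, zero_add, zero_sub] at f3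
    have hac : a = c := by
      have : 2 * (a - c) = 0 := by rw [← f1] at f2; linear_combination f2
      exact sub_eq_zero.1 ((mul_eq_zero.1 this).resolve_left h2)
    have hcc : Q z * (c' - c) = 0 := by
      rw [← f1, hac] at f3
      have : 2 * (Q z * (c' - c)) = 0 := by linear_combination f3
      exact (mul_eq_zero.1 this).resolve_left h2
    refine ⟨?_, fun hne => sub_eq_zero.1 ((mul_eq_zero.1 hcc).resolve_left hne)⟩
    rw [e1, hac, hcc]
    module
  obtain ⟨z, hz1, hz2, hz3⟩ := exists_nonsing_perp hQ hd h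
  have hcc : c' = c := (key z hz1 hz2).2 hz3
  refine ⟨c, fun v => ?_⟩
  have h1 := (key (proj Q x y v) (polar_proj_left h v) (polar_proj_right h v)).1
  have e : v = proj Q x y v + polar Q y v • x + polar Q x v • y := by rw [proj]; abel
  rw [e]
  simp only [map_add, map_smul, h1, hc, hc', hcc]
  module

end Cfsg.Agent.H882.Ten
end

-- part: H882/Ten/RadOne
section
/-!
# Overgroups containing a root element inside `U ⊗ w`

If `X` contains the root elements of the pairs `(u ⊗ w, y ⊗ w)`, `(u ⊗ w, y' ⊗ w)` with `b(y, y') ≠ 0` then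
`E Q ≤ X`.
-/

set_option autoImplicit false

namespace Cfsg.Agent.H882.Ten

open QuadraticMap hiding proj
open Cfsg.Agent.LieClassical.OrthCore Cfsg.Agent.LieClassical.OrthTrans Cfsg.Agent.H883.Root

section gen

variable {F : Type*} {V : Type*} [Field F] [AddCommGroup V] [Module F V] {Q : QuadraticForm F V}

theorem has_smul_of_sq (h2 : (2 : F) ≠ 0) {X : Subgroup (V ≃ₗ[F] V)} {a b : V}
    (h : ∀ c : F, Has Q X a ((c * c) • b)) (c : F) : Has Q X a (c • b) := by
  have h1 := (h ((c + 1) * 2⁻¹)).sub (h ((c - 1) * 2⁻¹))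
  refine h1.congr rfl ?_
  rw [← sub_smul]
  congr 1
  field_simp
  ring

theorem exists_perp_not_mult (hd : 3 ≤ Module.finrank F V) (a z' : V) :
    ∃ z, polar Q a z = 0 ∧ ∀ c : F, z ≠ c • z' := by
  by_contra hcon
  push Not at hcon
  have : Module.Finite F V := Module.finite_of_finrank_pos (by omega)
  have h1 := LinearMap.finrank_range_add_finrank_ker (polarBilin Q a)
  have h2 : Module.finrank F (LinearMap.range (polarBilin Q a)) ≤ 1 := by
    refine le_trans (Submodule.finrank_le _) ?_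
    rw [Module.finrank_self]
  have h3 : LinearMap.ker (polarBilin Q a) ≤ Submodule.span F {z'} := by
    intro z hz
    obtain ⟨c, hc⟩ := hcon z (LinearMap.mem_ker.1 hz)
    rw [hc]
    exact Submodule.smul_mem _ _ (Submodule.mem_span_singleton_self z')
  have h4 := Submodule.finrank_mono h3
  have h5 : Module.finrank F (Submodule.span F {z'}) ≤ 1 := by
    refine (finrank_span_le_card ({z'} : Set V)).trans ?_
    simp
  omega

end gen

variable {F : Type*} {U : Type*} {W : Type*} {V : Type*} [Field F] [AddCommGroup U] [Module F U]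
  [AddCommGroup W] [Module F W] [AddCommGroup V] [Module F V]
  {t : U →ₗ[F] W →ₗ[F] V} {QU : QuadraticForm F U} {QW : QuadraticForm F W} {Q : QuadraticForm F V}
  {X : Subgroup (V ≃ₗ[F] V)}

/-- `X` contains all root elements of pairs in `u ⊗ W`. -/
def AA (Q : QuadraticForm F V) (t : U →ₗ[F] W →ₗ[F] V) (X : Subgroup (V ≃ₗ[F] V)) (u : U) : Prop :=
  ∀ z1 z2 : W, Has Q X (t u z1) (t u z2)

/-- The hypotheses on an overgroup `X` used below. -/
structure Ovg (S : TSt t QU QW Q) (X : Subgroup (V ≃ₗ[F] V)) : Prop where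
  le : X ≤ O Q
  rU : ∀ k ∈ E QU, Ten.rU S.ten k ∈ X
  rW : ∀ l ∈ E QW, Ten.rW S.ten l ∈ X
  hW : Good QW
  hG : Good Q
  dU : 3 ≤ Module.finrank F U
  sU : ∃ x y : U, Hyp QU x y

namespace TSt

variable (S : TSt t QU QW Q)

theorem has_line (hX : Ovg S X) {u y y' : U} {w : W} (hu : QU u = 0) (hw : QW w = 0) (hw0 : w ≠ 0)
    (hy : polar QU u y = 0) (hy' : polar QU u y' = 0) (hyy : polar QU y' y ≠ 0)
    (h1 : Has Q X (t u w) (t y w)) (h2 : Has Q X (t u w) (t y' w)) (z : W) : Has Q X (t u w) (t u z) := by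
  obtain ⟨w0, hw0'⟩ := LieClassical.OrthTrans.exists_hyp S.ndW hw hw0
  refine op_ind hw0' (P := fun z => Has Q X (t u w) (t u z)) ?_ ?_ ?_ z
  · intro a c ha hc
    exact (ha.add hc).congr rfl (by rw [map_add])
  · intro c
    exact (has_self (S.sing_left hu w) c).congr rfl (by rw [map_smul])
  · intro w' hw' hww'
    have hw'0 : w' ≠ 0 := by
      rintro rfl
      exact hww' (polar_zero_right _ _)
    set d : F := - (polar QU y' y * polar QW w' w) with hd
    have hd0 : d ≠ 0 := neg_ne_zero.2 (mul_ne_zero hyy (by rwa [polar_comm]))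
    have key : ∀ c : F, Has Q X (t u w) ((c * c) • (d • t u w')) := by
      intro c
      by_cases hc : c = 0
      · subst hc
        refine (has_zero (S.sing_left hu w)).congr rfl (by simp)
      obtain ⟨l, hl, hlw⟩ := hX.hW.trans_sing hw (x' := c • w') (by rw [QuadraticMap.map_smul, hw', smul_zero])
        hw0 (smul_ne_zero hc hw'0)
      have h3 := h2.map (hX.le (hX.rW l hl)) (hX.rW l hl)
      rw [rW_apply, rW_apply, hlw] at h3
      have p1 : polar Q (t u (c • w')) (t u w) = 0 := by rw [S.pol, polar_self_of_sing hu, zero_mul]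
      have p2 : polar Q (t y' (c • w')) (t u w) = 0 := by rw [S.pol, polar_comm, hy', zero_mul]
      have h4 := h3.comm h1 p1 p2
      refine h4.congr rfl ?_
      have p3 : polar Q (t u (c • w')) (t y w) = 0 := by rw [S.pol, hy, zero_mul]
      rw [p3, S.pol, hd]
      simp only [map_smul, polar_smul_left, smul_eq_mul]
      module
    have h4 := has_smul_of_sq S.two key d⁻¹
    refine h4.congr rfl ?_
    rw [smul_smul, inv_mul_cancel₀ hd0, one_smul]

theorem AA_of_line (hX : Ovg S X) {u : U} {w : W} (hu : QU u = 0) (hw : QW w = 0) (hw0 : w ≠ 0)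
    (h : ∀ z, Has Q X (t u w) (t u z)) : AA Q t X u := by
  have h1 : ∀ w1, QW w1 = 0 → ∀ z, Has Q X (t u w1) (t u z) := by
    intro w1 hw1 z
    by_cases h0 : w1 = 0
    · subst h0
      rw [map_zero]
      exact has_zero_left _
    obtain ⟨l, hl, hlw⟩ := hX.hW.trans_sing hw hw1 hw0 h0
    have h2 := (h (l.symm z)).map (hX.le (hX.rW l hl)) (hX.rW l hl)
    rwa [rW_apply, rW_apply, hlw, LinearEquiv.apply_symm_apply] at h2
  intro z1 z2
  obtain ⟨x0, y0, h0⟩ := hX.hW.exists_hyp
  refine sing_induction h0 (P := fun z2 => Has Q X (t u z1) (t u z2)) ?_ ?_ z2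
  · intro a c ha hc
    exact (ha.add hc).congr rfl (by rw [map_add])
  · intro a ha
    have h2 := ((h1 a ha z1).swap (S.sing_left hu z1)).neg
    rwa [neg_neg] at h2

theorem AA_of_nonperp (hX : Ovg S X) {u u' : U} (hu : QU u = 0) (hu' : QU u' = 0) (huu' : polar QU u u' ≠ 0)
    (h : AA Q t X u) : AA Q t X u' := by
  have hyp : Hyp QU u ((polar QU u u')⁻¹ • u') := by
    refine ⟨hu, by rw [QuadraticMap.map_smul, hu', smul_zero], ?_⟩
    rw [polar_smul_right, smul_eq_mul, inv_mul_cancel₀ huu']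
  obtain ⟨z, hz, hz1, hz2⟩ := exists_third S.ndU hX.dU hyp
  rw [polar_smul_right, smul_eq_mul] at hz2
  have hz3 : polar QU z u' ≠ 0 := right_ne_zero_of_mul hz2
  have hy1 : Hyp QU z ((polar QU z u)⁻¹ • u) :=
    ⟨hz, by rw [QuadraticMap.map_smul, hu, smul_zero], by rw [polar_smul_right, smul_eq_mul, inv_mul_cancel₀ hz1]⟩
  have hy2 : Hyp QU z ((polar QU z u')⁻¹ • u') :=
    ⟨hz, by rw [QuadraticMap.map_smul, hu', smul_zero], by rw [polar_smul_right, smul_eq_mul, inv_mul_cancel₀ hz3]⟩
  obtain ⟨g, hg, -, hgu⟩ := siegel_partner hy1 hy2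
  have hgu' : g u = (polar QU z u * (polar QU z u')⁻¹) • u' := by
    have : u = (polar QU z u) • ((polar QU z u)⁻¹ • u) := by rw [smul_smul, mul_inv_cancel₀ hz1, one_smul]
    conv_lhs => rw [this]
    rw [map_smul, hgu, smul_smul]
  set γ := polar QU z u * (polar QU z u')⁻¹ with hγ
  have hγ0 : γ ≠ 0 := mul_ne_zero hz1 (inv_ne_zero hz3)
  intro z1 z2
  have h1 := (h (γ⁻¹ • z1) (γ⁻¹ • z2)).map (hX.le (hX.rU g hg)) (hX.rU g hg)
  rw [rU_apply, rU_apply, hgu'] at h1
  refine h1.congr ?_ ?_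
  · rw [map_smul, map_smul, LinearMap.smul_apply, smul_smul, inv_mul_cancel₀ hγ0, one_smul]
  · rw [map_smul, map_smul, LinearMap.smul_apply, smul_smul, inv_mul_cancel₀ hγ0, one_smul]

theorem has_opp (hX : Ovg S X) {u u' : U} (hu : QU u = 0) (hu' : QU u' = 0) (huu' : polar QU u u' ≠ 0)
    (h : AA Q t X u) (h' : AA Q t X u') {z1 z' : W} (hz : polar QW z1 z' = 0) :
    Has Q X (t u z1) (t u' z') := by
  have key : ∀ z', polar QW z1 z' = 0 → Has Q X (t u z1) (polar QU u' u • t u' z') := by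
    intro z' hz
    by_cases hz' : z' = 0
    · subst hz'
      rw [map_zero, smul_zero]
      exact has_zero (S.sing_left hu z1)
    obtain ⟨z1', h1, h2⟩ := exists_perp_not_mult (Q := QW) (by have := hX.hW.dim; omega) z1 z'
    obtain ⟨z2, h3, h4⟩ := exists_sep S.ndW h2
    have h5 := (h' z1' z').comm (h z1 z2) (by rw [S.pol, polar_comm QW, h1, mul_zero])
      (by rw [S.pol, polar_comm QW, hz, mul_zero])
    refine h5.congr rfl ?_
    have e1 : polar Q (t u' z1') (t u z2) = polar QU u' u := by rw [S.pol, h4, mul_one]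
    have e2 : polar Q (t u' z') (t u z2) = 0 := by rw [S.pol, h3, mul_zero]
    have e3 : Q (t u' z') = 0 := S.sing_left hu' z'
    rw [e1, e2, e3]
    module
  have huu'' : polar QU u' u ≠ 0 := by rwa [polar_comm]
  have h1 := key ((polar QU u' u)⁻¹ • z') (by rw [polar_smul_right, hz, smul_zero])
  refine h1.congr rfl ?_
  rw [map_smul, smul_smul, mul_inv_cancel₀ huu'', one_smul]

theorem has_perpW (hX : Ovg S X) {u u' : U} (hy : Hyp QU u u')
    (h : AA Q t X u) {z1 z' : W} (hz : polar QW z1 z' = 0) (y : U) :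
    Has Q X (t u z1) (t y z') := by
  refine op_ind hy (P := fun y => Has Q X (t u z1) (t y z')) ?_ ?_ ?_ y
  · intro a c ha hc
    exact (ha.add hc).congr rfl (by rw [map_add]; rfl)
  · intro c
    refine (h z1 (c • z')).congr rfl ?_
    rw [map_smul, map_smul]; rfl
  · intro a ha hua
    exact S.has_opp hX hy.left ha hua h (S.AA_of_nonperp hX hy.left ha hua h) hz

theorem has_perpU (hX : Ovg S X) {u u' : U} (hyp : Hyp QU u u')
    (h : AA Q t X u) {y : U} (hy : polar QU u y = 0) (z1 z' : W) :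
    Has Q X (t u z1) (t y z') := by
  obtain ⟨z2, h1, h2⟩ := exists_perp_not_mult (Q := QW) (by have := hX.hW.dim; omega) z' z1
  obtain ⟨z3, h3, h4⟩ := exists_sep S.ndW h2
  have h5 := (S.has_perpW hX hyp h (z1 := z2) (z' := z') (by rw [polar_comm]; exact h1) y).comm
    (S.has_perpW hX hyp h (z1 := z1) (z' := z3) h3 u')
    (by rw [S.pol, hyp.polar_left, zero_mul]) (by rw [S.pol, polar_comm, hy, zero_mul])
  have e1 : polar Q (t u z2) (t u' z3) = 1 := by rw [S.pol, hyp.pair, h4, one_mul]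
  rw [e1] at h5
  have h6 := h z1 ((polar Q (t y z') (t u' z3) + Q (t y z') * 1) • z2)
  refine (h5.add h6).congr rfl ?_
  rw [map_smul]
  module

theorem full_of_AA (hX : Ovg S X) {u u' : U} (hyp : Hyp QU u u')
    (h : AA Q t X u) (z1 : W) (hz1 : z1 ≠ 0) : Full Q X (t u z1) := by
  obtain ⟨z1', hz1'⟩ := S.ndW.exists_polar_eq hz1 1
  have key : ∀ v : V, ∃ c : F, Has Q X (t u z1) (v - c • t u' z1') := by
    intro v
    induction v using S.ten.inductionOn with
    | zero => exact ⟨0, (has_zero (S.sing_left hyp.left z1)).congr rfl (by simp)⟩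
    | tmul y z =>
      set β := polar QU u y with hβ
      set γ := polar QW z1 z with hγ
      have h1 := S.has_perpU hX hyp h (y := y - β • u') (by
        rw [polar_sub_right, polar_smul_right, hyp.pair, hβ]; simp) z1 z
      have h2 := S.has_perpW hX hyp h (z1 := z1) (z' := β • (z - γ • z1')) (by
        rw [polar_smul_right, polar_sub_right, polar_smul_right, hz1', hγ]; simp) u'
      refine ⟨β * γ, (h1.add h2).congr rfl ?_⟩
      simp only [map_sub, map_smul, LinearMap.sub_apply, LinearMap.smul_apply]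
      module
    | add x y hx hy =>
      obtain ⟨c, hc⟩ := hx
      obtain ⟨d, hd⟩ := hy
      exact ⟨c + d, (hc.add hd).congr rfl (by module)⟩
  refine ⟨S.sing_left hyp.left z1, fun v hv => ?_⟩
  obtain ⟨c, hc⟩ := key v
  have h1 := hc.perp
  rw [polar_sub_right, hv, polar_smul_right, S.pol, hyp.pair, hz1'] at h1
  have hc0 : c = 0 := by simpa using h1
  subst hc0
  exact hc.congr rfl (by simp)

theorem E_le_of_AA (hX : Ovg S X) {u : U} (hu : QU u = 0) (hu0 : u ≠ 0) (h : AA Q t X u) : E Q ≤ X := by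
  obtain ⟨u', hyp⟩ := LieClassical.OrthTrans.exists_hyp S.ndU hu hu0
  obtain ⟨x, hx0, -⟩ := hX.hW.sing
  obtain ⟨x', hx'⟩ := S.ndW.exists_polar_eq hx0 1
  have hx'0 : x' ≠ 0 := by
    rintro rfl
    rw [polar_zero_right] at hx'
    exact zero_ne_one hx'
  have h1 := S.full_of_AA hX hyp h x hx0
  have h2 := S.full_of_AA hX hyp.symm
    (S.AA_of_nonperp hX hyp.left hyp.right (by rw [hyp.pair]; exact one_ne_zero) h) x' hx'0
  exact E_le_of_full_pair hX.hG h1 h2 (by rw [S.pol, hyp.pair, hx']; simp)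

/-- **Case 1, final form.** -/
theorem E_le_of_has (hX : Ovg S X) {u y y' : U} {w : W} (hu : QU u = 0) (hu0 : u ≠ 0) (hw : QW w = 0)
    (hw0 : w ≠ 0) (hy : polar QU u y = 0) (hy' : polar QU u y' = 0) (hyy : polar QU y' y ≠ 0)
    (h1 : Has Q X (t u w) (t y w)) (h2 : Has Q X (t u w) (t y' w)) : E Q ≤ X :=
  S.E_le_of_AA hX hu hu0 (S.AA_of_line hX hu hw hw0 (S.has_line hX hu hw hw0 hy hy' hyy h1 h2))

end TSt

end Cfsg.Agent.H882.Ten
end

-- part: H882/Ten/RadTwo
section
/-!
# The centre of the unipotent radical of the stabiliser of `U ⊗ w`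

`InZ S X w κ`: `X` contains `1 + κ ⊗ (w w*)`, `κ` a skew operator of `U`. If `κ ≠ 0` then `E Q ≤ X`.
-/

set_option autoImplicit false
set_option linter.unusedSimpArgs false
set_option linter.unusedSectionVars false

namespace Cfsg.Agent.H882.Ten

open QuadraticMap hiding proj
open Cfsg.Agent.LieClassical.OrthCore Cfsg.Agent.LieClassical.OrthTrans Cfsg.Agent.H883.Root

section kap

variable {F : Type*} {U : Type*} [Field F] [AddCommGroup U] [Module F U] {QU : QuadraticForm F U}

/-- conjugate of an operator -/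
def cj (k : U ≃ₗ[F] U) (κ : U →ₗ[F] U) : U →ₗ[F] U := k.toLinearMap ∘ₗ κ ∘ₗ (k⁻¹).toLinearMap

theorem cj_apply (k : U ≃ₗ[F] U) (κ : U →ₗ[F] U) (v : U) : cj k κ v = k (κ (k⁻¹ v)) := rfl

theorem siegel_inv_apply {u x : U} (hu : QU u = 0) (hx : polar QU u x = 0) (v : U) :
    (siegel QU u x hu hx)⁻¹ v = v - polar QU u v • x + polar QU x v • u - (QU x * polar QU u v) • u := by
  rw [siegel_inv hu hx (by rw [polar_neg_right, hx, neg_zero]), siegel_apply, QuadraticMap.map_neg,
    polar_neg_left]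
  module

theorem kappa2 {κ : U →ₗ[F] U} (hκ : ∀ v v', polar QU (κ v) v' = - polar QU v (κ v')) (h2 : (2 : F) ≠ 0)
    {u x : U} (hu : QU u = 0) (hx : polar QU u x = 0) (v : U) :
    (cj (siegel QU u x hu hx) (cj (siegel QU u x hu hx) κ - κ) - (cj (siegel QU u x hu hx) κ - κ)) v =
      polar QU ((2 * QU x) • κ u - (2 * polar QU (κ u) x) • x) v • u -
        polar QU u v • ((2 * QU x) • κ u - (2 * polar QU (κ u) x) • x) := by
  have hxu : polar QU x u = 0 := by rw [polar_comm]; exact hx
  have huu : polar QU u u = 0 := polar_self_of_sing hu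
  have hxx : polar QU x x = 2 * QU x := polar_self' x
  have e0 : ∀ v, polar QU v (κ v) = 0 := by
    intro v
    have h1 := hκ v v
    rw [polar_comm] at h1
    have h3 : 2 * polar QU v (κ v) = 0 := by linear_combination h1
    exact (mul_eq_zero.1 h3).resolve_left h2
  have e1 : ∀ p, polar QU u (κ p) = - polar QU (κ u) p := by
    intro p; rw [hκ u p, neg_neg]
  have e2 : ∀ p, polar QU x (κ p) = - polar QU (κ x) p := by
    intro p; rw [hκ x p, neg_neg]
  have e3 : polar QU (κ u) u = 0 := by rw [polar_comm]; exact e0 u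
  have e4 : polar QU (κ x) x = 0 := by rw [polar_comm]; exact e0 x
  have e5 : polar QU (κ x) u = - polar QU (κ u) x := by rw [hκ x u, polar_comm]
  simp only [LinearMap.sub_apply, cj_apply, siegel_inv_apply, siegel_apply, map_sub, map_add, map_smul,
    polar_sub_right, polar_add_right, polar_smul_right, polar_sub_left, polar_smul_left, hx, hxu, huu, hxx,
    e1, e2, e3, e4, e5, smul_eq_mul]
  module

end kap

variable {F : Type*} {U : Type*} {W : Type*} {V : Type*} [Field F] [AddCommGroup U] [Module F U]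
  [AddCommGroup W] [Module F W] [AddCommGroup V] [Module F V]
  {t : U →ₗ[F] W →ₗ[F] V} {QU : QuadraticForm F U} {QW : QuadraticForm F W} {Q : QuadraticForm F V}
  {X : Subgroup (V ≃ₗ[F] V)}

/-- `X` contains `1 + κ ⊗ (w w*)`. -/
def InZ (t : U →ₗ[F] W →ₗ[F] V) (QW : QuadraticForm F W) (X : Subgroup (V ≃ₗ[F] V)) (w : W) (κ : U →ₗ[F] U) :
    Prop := ∃ g ∈ X, ∀ u z, g (t u z) = t u z + polar QW w z • t (κ u) w

/-- No totally singular line of `U` contains its perp modulo singular vectors (fails for plus type, dimension 4). -/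
def PU (QU : QuadraticForm F U) : Prop := ∀ u v : U, QU u = 0 → QU v = 0 → polar QU u v = 0 → u ≠ 0 →
  (∀ c : F, v ≠ c • u) → ∃ x, polar QU u x = 0 ∧ polar QU v x = 0 ∧ QU x ≠ 0

namespace TSt

variable (S : TSt t QU QW Q)

include S

theorem inZ_skew (hX : X ≤ O Q) {w : W} (hw : QW w = 0) (hw0 : w ≠ 0) {κ : U →ₗ[F] U} (h : InZ t QW X w κ)
    (u u' : U) : polar QU (κ u) u' = - polar QU u (κ u') := by
  obtain ⟨g, hg, hgt⟩ := h
  obtain ⟨z, hz⟩ := S.ndW.exists_polar_eq hw0 1
  have h1 := polar_map (hX hg) (t u z) (t u' z)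
  rw [hgt, hgt] at h1
  simp only [polar_add_left, polar_add_right, polar_smul_left, polar_smul_right, S.pol, hz, polar_self_of_sing hw,
    polar_comm QW z w, smul_eq_mul] at h1
  linear_combination h1

theorem inZ_sub {w : W} (hw : QW w = 0) {κ κ' : U →ₗ[F] U} (h : InZ t QW X w κ) (h' : InZ t QW X w κ') :
    InZ t QW X w (κ - κ') := by
  obtain ⟨g, hg, hgt⟩ := h
  obtain ⟨g', hg', hgt'⟩ := h'
  have hinv : ∀ u z, g'⁻¹ (t u z) = t u z - polar QW w z • t (κ' u) w := by
    intro u z
    have h1 : g' (t u z - polar QW w z • t (κ' u) w) = t u z := by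
      rw [map_sub, map_smul, hgt', hgt', polar_self_of_sing hw]
      module
    have h2 : g'⁻¹ (g' (t u z - polar QW w z • t (κ' u) w)) = t u z - polar QW w z • t (κ' u) w :=
      LinearEquiv.symm_apply_apply g' _
    rw [h1] at h2
    exact h2
  refine ⟨g * g'⁻¹, X.mul_mem hg (X.inv_mem hg'), fun u z => ?_⟩
  show g (g'⁻¹ (t u z)) = _
  rw [hinv, map_sub, map_smul, hgt, hgt, polar_self_of_sing hw]
  simp only [LinearMap.sub_apply, map_sub]
  module

theorem inZ_cj {w : W} {κ : U →ₗ[F] U} (h : InZ t QW X w κ) {k : U ≃ₗ[F] U} (hk : rU S.ten k ∈ X) :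
    InZ t QW X w (cj k κ) := by
  obtain ⟨g, hg, hgt⟩ := h
  refine ⟨rU S.ten k * g * (rU S.ten k)⁻¹, X.mul_mem (X.mul_mem hk hg) (X.inv_mem hk), fun u z => ?_⟩
  have h1 : (rU S.ten k)⁻¹ (t u z) = t (k⁻¹ u) z := by rw [← map_inv, rU_apply]
  show rU S.ten k (g ((rU S.ten k)⁻¹ (t u z))) = _
  rw [h1, hgt, map_add, map_smul, rU_apply, rU_apply, cj_apply]
  have h2 : k (k⁻¹ u) = u := LinearEquiv.apply_symm_apply k u
  rw [h2]

theorem has_of_inZ {w : W} (hw : QW w = 0) {κ : U →ₗ[F] U} (h : InZ t QW X w κ) {u y : U}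
    (hu : QU u = 0) (hy : polar QU u y = 0) (hκ : ∀ v, κ v = polar QU u v • y - polar QU y v • u) :
    Has Q X (t u w) (t y w) := by
  obtain ⟨g, hg, hgt⟩ := h
  have hp : polar Q (t u w) (t y w) = 0 := by rw [S.pol, hy, zero_mul]
  refine ⟨S.sing_left hu w, hp, ?_⟩
  have e : siegel Q (t u w) (t y w) (S.sing_left hu w) hp = g := by
    refine ext_t' S.ten fun a z => ?_
    rw [siegel_apply, hgt, S.pol, S.pol, S.sing_right y hw, hκ]
    simp only [map_sub, map_smul, LinearMap.sub_apply, LinearMap.smul_apply]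
    module
  rw [e]
  exact hg

theorem has_y (hX : Ovg S X) {w : W} (hw : QW w = 0) (hw0 : w ≠ 0) {κ : U →ₗ[F] U} (h : InZ t QW X w κ)
    {u x : U} (hu : QU u = 0) (hx : polar QU u x = 0) :
    Has Q X (t u w) (t ((2 * QU x) • κ u - (2 * polar QU (κ u) x) • x) w) := by
  have hsk := S.inZ_skew hX.le hw hw0 h
  have hk : rU S.ten (siegel QU u x hu hx) ∈ X := hX.rU _ (siegel_mem_E hu hx)
  have h1 := S.inZ_sub hw (S.inZ_cj h hk) h
  have h2 := S.inZ_sub hw (S.inZ_cj h1 hk) h1
  have h3 := kappa2 hsk S.two hu hx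
  have hxu : polar QU u (κ u) = 0 := by
    have h4 := hsk u u
    rw [polar_comm] at h4
    have h5 : 2 * polar QU u (κ u) = 0 := by linear_combination h4
    exact (mul_eq_zero.1 h5).resolve_left S.two
  have hp : polar QU u ((2 * QU x) • κ u - (2 * polar QU (κ u) x) • x) = 0 := by
    rw [polar_sub_right, polar_smul_right, polar_smul_right, hxu, hx]; simp
  have h4 := S.has_of_inZ hw h2 (u := u) (y := -((2 * QU x) • κ u - (2 * polar QU (κ u) x) • x)) hu
    (by rw [polar_neg_right, hp, neg_zero]) (by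
      intro v
      rw [h3, polar_neg_left]
      module)
  refine h4.neg.congr rfl ?_
  rw [map_neg, LinearMap.neg_apply, neg_neg]

/-- **Case 1.** -/
theorem E_le_of_inZ (hX : Ovg S X) (hPU : PU QU) {w : W} (hw : QW w = 0) (hw0 : w ≠ 0) {κ : U →ₗ[F] U}
    (h : InZ t QW X w κ) (hκ : κ ≠ 0) : E Q ≤ X := by
  have hsk := S.inZ_skew hX.le hw hw0 h
  obtain ⟨x0, y0, hxy0⟩ := hX.sU
  have hself : ∀ u, polar QU u (κ u) = 0 := by
    intro u
    have h4 := hsk u u
    rw [polar_comm] at h4
    have h5 : 2 * polar QU u (κ u) = 0 := by linear_combination h4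
    exact (mul_eq_zero.1 h5).resolve_left S.two
  obtain ⟨u, hu, hku⟩ : ∃ u, QU u = 0 ∧ ∀ c : F, κ u ≠ c • u := by
    by_contra hcon
    push Not at hcon
    obtain ⟨c, hc⟩ := scalar_of_sing S.two S.ndU hX.dU hxy0 κ hcon
    apply hκ
    have h1 := hsk x0 y0
    rw [hc, hc, polar_smul_left, polar_smul_right, hxy0.pair] at h1
    have h5 : 2 * c = 0 := by
      have : c * 1 = -(c * 1) := h1
      linear_combination this
    have hc0 := (mul_eq_zero.1 h5).resolve_left S.two
    ext v
    rw [hc, hc0, zero_smul]; rfl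
  have hu0 : u ≠ 0 := by
    rintro rfl
    exact hku 0 (by simp)
  obtain ⟨u', hyp⟩ := LieClassical.OrthTrans.exists_hyp S.ndU hu hu0
  obtain ⟨x1, hx1, -, hx1n⟩ := exists_nonsing_perp S.ndU hX.dU hyp
  by_cases hq : QU (κ u) = 0
  · obtain ⟨x', hx', hx'2, hx'n⟩ := hPU u (κ u) hu hq (hself u) hu0 hku
    obtain ⟨x, hx, hx2⟩ := exists_sep S.ndU hku
    have h1 := S.has_y hX hw hw0 h hu hx
    have h2 := S.has_y hX hw hw0 h hu hx'
    refine S.E_le_of_has hX hu hu0 hw hw0 ?_ ?_ ?_ h1 h2
    · rw [polar_sub_right, polar_smul_right, polar_smul_right, hself, hx]; simp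
    · rw [polar_sub_right, polar_smul_right, polar_smul_right, hself, hx']; simp
    · rw [hx'2, hx2]
      simp only [mul_zero, zero_smul, sub_zero, polar_sub_right, polar_smul_left, polar_smul_right, mul_one,
        polar_self_of_sing hq, hx2, smul_eq_mul]
      intro h0
      have : 2 * (2 * QU x') = 0 := by linear_combination -h0
      exact mul_ne_zero S.two (mul_ne_zero S.two hx'n) this
  · have h1 := S.has_y hX hw hw0 h hu hx1
    have hp : polar QU u ((2 * QU x1) • κ u - (2 * polar QU (κ u) x1) • x1) = 0 := by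
      rw [polar_sub_right, polar_smul_right, polar_smul_right, hself, hx1]; simp
    refine S.E_le_of_has hX hu hu0 hw hw0 hp hp ?_ h1 h1
    have e : polar QU ((2 * QU x1) • κ u - (2 * polar QU (κ u) x1) • x1)
        ((2 * QU x1) • κ u - (2 * polar QU (κ u) x1) • x1) = (2 * QU x1) * (2 * QU x1) * (2 * QU (κ u)) := by
      have e1 := polar_self' (Q := QU) (κ u)
      have e2 := polar_self' (Q := QU) x1
      simp only [polar_sub_left, polar_sub_right, polar_smul_left, polar_smul_right, smul_eq_mul, e1, e2,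
        polar_comm QU x1 (κ u)]
      ring
    rw [e]
    exact mul_ne_zero (mul_ne_zero (mul_ne_zero S.two hx1n) (mul_ne_zero S.two hx1n)) (mul_ne_zero S.two hq)

end TSt

end Cfsg.Agent.H882.Ten
end

-- part: H882/Ten/RadThree
section
/-!
# The unipotent radical of the stabiliser of `U ⊗ w`: commutators

`IsR t QW w g τ`: `g` fixes `U ⊗ w` pointwise and `g (u ⊗ z) = u ⊗ z + τ z u ⊗ w` for `z ⊥ w`.
-/

set_option autoImplicit false
set_option linter.unusedSimpArgs false
set_option linter.unusedSectionVars false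

namespace Cfsg.Agent.H882.Ten

open QuadraticMap hiding proj
open Cfsg.Agent.LieClassical.OrthCore Cfsg.Agent.LieClassical.OrthTrans Cfsg.Agent.H883.Root

variable {F : Type*} {U : Type*} {W : Type*} {V : Type*} [Field F] [AddCommGroup U] [Module F U]
  [AddCommGroup W] [Module F W] [AddCommGroup V] [Module F V]
  {t : U →ₗ[F] W →ₗ[F] V} {QU : QuadraticForm F U} {QW : QuadraticForm F W} {Q : QuadraticForm F V}
  {X : Subgroup (V ≃ₗ[F] V)}

/-- `g` is in the unipotent radical of the stabiliser of `U ⊗ w`, with parameter `τ`. -/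
def IsR (t : U →ₗ[F] W →ₗ[F] V) (QW : QuadraticForm F W) (w : W) (g : V ≃ₗ[F] V) (τ : W →ₗ[F] U →ₗ[F] U) : Prop :=
  (∀ u, g (t u w) = t u w) ∧ ∀ u z, polar QW w z = 0 → g (t u z) = t u z + t (τ z u) w

/-- the same, existence in `X` -/
def InR (t : U →ₗ[F] W →ₗ[F] V) (QW : QuadraticForm F W) (X : Subgroup (V ≃ₗ[F] V)) (w : W)
    (τ : W →ₗ[F] U →ₗ[F] U) : Prop := ∃ g ∈ X, IsR t QW w g τ

namespace TSt

variable (S : TSt t QU QW Q)

include S

/-- `τ` as a map on `V` -/
noncomputable def hat (τ : W →ₗ[F] U →ₗ[F] U) : V →ₗ[F] U := S.ten.lift τ.flip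

theorem hat_t (τ : W →ₗ[F] U →ₗ[F] U) (u : U) (z : W) : S.hat τ (t u z) = τ z u := by
  rw [hat, S.ten.lift_eq]; rfl

theorem tau_self {w : W} (hw : QW w = 0) (hw0 : w ≠ 0) {g : V ≃ₗ[F] V} {τ : W →ₗ[F] U →ₗ[F] U}
    (h : IsR t QW w g τ) (u : U) : τ w u = 0 := by
  have h1 := h.2 u w (polar_self_of_sing hw)
  rw [h.1] at h1
  exact eq_zero_of_t S.ten (left_eq_add.1 h1) hw0

/-- the action on `U ⊗ w^⊥` -/
theorem isR_apply {w w' : W} (hyp : Hyp QW w w') {g : V ≃ₗ[F] V} {τ : W →ₗ[F] U →ₗ[F] U}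
    (h : IsR t QW w g τ) {v : V} (hv : S.cw w v = 0) : g v = v + t (S.hat τ v) w := by
  have hw0 : w ≠ 0 := hyp.left_ne
  -- the identity `g v = v + t (hat v) w + (g - 1 - ..) (t (cw w v) w')`
  have key : (g : V →ₗ[F] V) = LinearMap.id + (t.flip w) ∘ₗ S.hat τ +
      (((g : V →ₗ[F] V) - LinearMap.id) ∘ₗ t.flip w' - (t.flip w) ∘ₗ S.hat τ ∘ₗ t.flip w') ∘ₗ S.cw w := by
    refine ext_t S.ten fun u z => ?_
    simp only [LinearMap.add_apply, LinearMap.sub_apply, LinearMap.comp_apply, LinearMap.id_apply,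
      LinearMap.flip_apply, S.cw_t, S.hat_t, LinearEquiv.coe_coe]
    set β := polar QW w z with hβ
    have h1 := h.2 u (z - β • w') (by rw [polar_sub_right, polar_smul_right, hyp.pair, hβ]; simp)
    simp only [map_sub, map_smul, LinearMap.sub_apply, LinearMap.smul_apply] at h1 ⊢
    have h2 : g (t u z) = β • g (t u w') + (t u z - β • t u w' + (t (τ z u) w - β • t (τ w' u) w)) := by
      rw [← h1]; abel
    rw [h2]
    module
  have h1 := LinearMap.congr_fun key v
  simp only [LinearMap.add_apply, LinearMap.sub_apply, LinearMap.comp_apply, LinearMap.id_apply,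
    LinearMap.flip_apply, hv, map_zero, LinearEquiv.coe_coe, sub_zero, add_zero] at h1
  rw [h1]

theorem cw_s_zero (hX : X ≤ O Q) {w w' : W} {g : V ≃ₗ[F] V} (hg : g ∈ X)
    {τ : W →ₗ[F] U →ₗ[F] U} (h : IsR t QW w g τ) (u : U) : S.cw w (g (t u w') - t u w') = 0 := by
  rw [S.cw_eq_zero_iff]
  intro u'
  have h1 := polar_map (hX hg) (t u w') (t u' w)
  rw [h.1] at h1
  rw [polar_sub_left, h1, sub_self]

/-- the adjoint relation -/
theorem cw_s (hX : X ≤ O Q) {w w' : W} (hyp : Hyp QW w w') {g : V ≃ₗ[F] V} (hg : g ∈ X)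
    {τ : W →ₗ[F] U →ₗ[F] U} (h : IsR t QW w g τ) {z : W} (hz : polar QW w z = 0) (u u' : U) :
    polar QU (S.cw z (g (t u w') - t u w')) u' = - polar QU u (τ z u') := by
  rw [← S.polar_cw]
  have h1 : t u' z = g (t u' z) - t (τ z u') w := by rw [h.2 u' z hz]; abel
  have h2 := polar_map (hX hg) (t u w') (t u' z)
  have h3 := polar_map (hX hg) (t u w') (t (τ z u') w)
  rw [h.1, S.pol, hyp.pair', mul_one] at h3
  have h4 : polar Q (g (t u w')) (t u' z) = polar Q (t u w') (t u' z) - polar QU u (τ z u') := by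
    rw [h1, polar_sub_right, h2, h3, ← h1]
  rw [polar_sub_left, h4]
  ring

/-- **Commutator of two elements of the radical.** -/
theorem rad_comm (hX : X ≤ O Q) {w w' : W} (hyp : Hyp QW w w') {g g' : V ≃ₗ[F] V} (hg : g ∈ X) (hg' : g' ∈ X)
    {τ τ' : W →ₗ[F] U →ₗ[F] U} (h : IsR t QW w g τ) (h' : IsR t QW w g' τ') :
    ∃ κ : U →ₗ[F] U, InZ t QW X w κ ∧
      ∀ u, κ u = S.hat τ (g' (t u w') - t u w') - S.hat τ' (g (t u w') - t u w') := by
  let κ : U →ₗ[F] U := S.hat τ ∘ₗ ((g' : V →ₗ[F] V) - LinearMap.id) ∘ₗ t.flip w' -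
    S.hat τ' ∘ₗ ((g : V →ₗ[F] V) - LinearMap.id) ∘ₗ t.flip w'
  have hκ : ∀ u, κ u = S.hat τ (g' (t u w') - t u w') - S.hat τ' (g (t u w') - t u w') := fun u => rfl
  refine ⟨κ, ⟨(g * g') * (g' * g)⁻¹, X.mul_mem (X.mul_mem hg hg') (X.inv_mem (X.mul_mem hg' hg)), ?_⟩, hκ⟩
  -- `g g' v = g' g v + t (κ (cw w v)) w`
  have key : ∀ v, g (g' v) = g' (g v) + t (κ (S.cw w v)) w := by
    have : (g : V →ₗ[F] V) ∘ₗ (g' : V →ₗ[F] V) = (g' : V →ₗ[F] V) ∘ₗ (g : V →ₗ[F] V) +
        t.flip w ∘ₗ κ ∘ₗ S.cw w := by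
      refine ext_t S.ten fun u z => ?_
      show g (g' (t u z)) = g' (g (t u z)) + t (κ (S.cw w (t u z))) w
      rw [S.cw_t]
      set β := polar QW w z with hβ
      have hz0 : polar QW w (z - β • w') = 0 := by rw [polar_sub_right, polar_smul_right, hyp.pair, hβ]; simp
      have e1 : g (g' (t u (z - β • w'))) = g' (g (t u (z - β • w'))) := by
        rw [h'.2 u _ hz0, h.2 u _ hz0, map_add, map_add, h.2 u _ hz0, h'.2 u _ hz0, h.1, h'.1]
        abel
      have e2 : g (g' (t u w')) = g' (g (t u w')) + t (κ u) w := by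
        have f1 : g' (t u w') = t u w' + (g' (t u w') - t u w') := by abel
        have f2 : g (t u w') = t u w' + (g (t u w') - t u w') := by abel
        have f3 := S.isR_apply hyp h (S.cw_s_zero hX (w' := w') hg' h' u)
        have f4 := S.isR_apply hyp h' (S.cw_s_zero hX (w' := w') hg h u)
        rw [f1, map_add, f3]
        conv_rhs => rw [f2, map_add, f4]
        rw [hκ]
        simp only [map_sub, LinearMap.sub_apply]
        abel
      have e3 : t u z = t u (z - β • w') + β • t u w' := by rw [map_sub, map_smul]; abel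
      rw [e3]
      simp only [map_add g, map_add g', map_smul g, map_smul g', e1, e2, map_smul, LinearMap.smul_apply]
      module
    intro v
    exact LinearMap.congr_fun this v
  intro u z
  set N : V ≃ₗ[F] V := g' * g with hN
  have hNX : N ∈ X := X.mul_mem hg' hg
  have h1 := key (N⁻¹ (t u z))
  have h2 : g' (g (N⁻¹ (t u z))) = t u z := LinearEquiv.apply_symm_apply N (t u z)
  rw [h2] at h1
  show g (g' (N⁻¹ (t u z))) = _
  rw [h1]
  have h3 : S.cw w (N⁻¹ (t u z)) = polar QW w z • u := by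
    refine S.eq_of_polar fun y => ?_
    rw [← S.polar_cw]
    have h4 := polar_map (hX hNX) (N⁻¹ (t u z)) (t y w)
    have h5 : N (N⁻¹ (t u z)) = t u z := LinearEquiv.apply_symm_apply N (t u z)
    have h6 : N (t y w) = t y w := by
      show g' (g (t y w)) = _
      rw [h.1, h'.1]
    rw [h5, h6] at h4
    rw [← h4, S.pol, polar_smul_left, smul_eq_mul, polar_comm QW]
    ring
  rw [h3, map_smul, map_smul]
  rfl

/-- elements of `E_w` -/
theorem isR_siegel {w x : W} (hw : QW w = 0) (hx : polar QW w x = 0) :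
    IsR t QW w (rW S.ten (siegel QW w x hw hx)) (-(polarBilin QW x).smulRight (LinearMap.id : U →ₗ[F] U)) := by
  constructor
  · intro u
    rw [rW_apply, siegel_apply, polar_self_of_sing hw, polar_comm QW x w, hx]
    simp
  · intro u z hz
    rw [rW_apply, siegel_apply, hz]
    simp only [zero_smul, add_zero, mul_zero, sub_zero, map_sub, map_smul, LinearMap.neg_apply,
      LinearMap.smulRight_apply, polarBilin_apply_apply, LinearMap.smul_apply, LinearMap.id_apply, map_neg]
    module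

/-- **All parameters are self-adjoint** if the centre meets `X` trivially. -/
theorem tau_symm (hX : Ovg S X) {w : W} (hw : QW w = 0) (hw0 : w ≠ 0)
    (hZ : ∀ κ, InZ t QW X w κ → κ = 0) {τ : W →ₗ[F] U →ₗ[F] U} (h : InR t QW X w τ) {x : W}
    (hx : polar QW w x = 0) (u u' : U) : polar QU (τ x u) u' = polar QU u (τ x u') := by
  obtain ⟨g, hg, hgτ⟩ := h
  obtain ⟨w', hyp⟩ := LieClassical.OrthTrans.exists_hyp S.ndW hw hw0
  obtain ⟨κ, hκ, hκ'⟩ := S.rad_comm hX.le hyp hg (hX.rW _ (siegel_mem_E hw hx)) hgτ (S.isR_siegel hw hx)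
  have h0 := hZ κ hκ
  have h1 := hκ' u
  rw [h0, LinearMap.zero_apply, rW_apply] at h1
  have h2 : t u (siegel QW w x hw hx w') - t u w' = t u (x - (polar QW x w' + QW x) • w) := by
    rw [← map_sub]
    congr 1
    rw [siegel_apply, hyp.pair]
    module
  rw [h2, S.hat_t] at h1
  have h3 : ∀ v, S.hat (-(polarBilin QW x).smulRight (LinearMap.id : U →ₗ[F] U)) v = - S.cw x v := by
    have : S.hat (-(polarBilin QW x).smulRight (LinearMap.id : U →ₗ[F] U)) = - S.cw x := by
      refine ext_t S.ten fun u z => ?_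
      rw [S.hat_t, LinearMap.neg_apply, LinearMap.neg_apply, LinearMap.neg_apply, S.cw_t]
      rfl
    intro v
    rw [this]; rfl
  rw [h3] at h1
  have h4 : τ (x - (polar QW x w' + QW x) • w) u = τ x u := by
    rw [map_sub, map_smul, LinearMap.sub_apply, LinearMap.smul_apply, S.tau_self hw hw0 hgτ]
    simp
  rw [h4] at h1
  have h5 := S.cw_s hX.le hyp hg hgτ hx u u'
  have h6 : τ x u = - S.cw x (g (t u w') - t u w') := by
    rw [eq_neg_iff_add_eq_zero]
    rw [sub_neg_eq_add] at h1
    exact h1.symm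
  rw [h6, polar_neg_left, h5, neg_neg]

/-- **Commuting parameters.** -/
theorem tau_commute (hX : Ovg S X) {w : W} (hw : QW w = 0) (hw0 : w ≠ 0)
    (hZ : ∀ κ, InZ t QW X w κ → κ = 0) {α β : U →ₗ[F] U} {y0 y1 : W} (hy0 : polar QW w y0 = 0)
    (hy1 : polar QW w y1 = 0) (hy : polar QW y0 y1 ≠ 0)
    (h : InR t QW X w ((polarBilin QW y0).smulRight α)) (h' : InR t QW X w ((polarBilin QW y1).smulRight β))
    (hα : ∀ u u', polar QU (α u) u' = polar QU u (α u')) (hβ : ∀ u u', polar QU (β u) u' = polar QU u (β u'))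
    (u : U) : α (β u) = β (α u) := by
  obtain ⟨g, hg, hgτ⟩ := h
  obtain ⟨g', hg', hgτ'⟩ := h'
  obtain ⟨w', hyp⟩ := LieClassical.OrthTrans.exists_hyp S.ndW hw hw0
  obtain ⟨κ, hκ, hκ'⟩ := S.rad_comm hX.le hyp hg hg' hgτ hgτ'
  have h0 := hZ κ hκ
  have h1 := hκ' u
  have h3 : ∀ (γ : U →ₗ[F] U) (x : W) v, S.hat ((polarBilin QW x).smulRight γ) v = γ (S.cw x v) := by
    intro γ x
    have : S.hat ((polarBilin QW x).smulRight γ) = γ ∘ₗ S.cw x := by
      refine ext_t S.ten fun u z => ?_
      rw [S.hat_t, LinearMap.comp_apply, S.cw_t, map_smul]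
      rfl
    intro v
    rw [this]; rfl
  rw [h0, LinearMap.zero_apply, h3, h3] at h1
  have h4 : S.cw y0 (g' (t u w') - t u w') = - (polar QW y0 y1 • β u) := by
    refine S.eq_of_polar fun y => ?_
    rw [S.cw_s hX.le hyp hg' hgτ' hy0 u y, LinearMap.smulRight_apply, LinearMap.smul_apply, polar_smul_right,
      polar_neg_left, polar_smul_left, hβ, polarBilin_apply_apply, polar_comm QW y1 y0]
  have h5 : S.cw y1 (g (t u w') - t u w') = - (polar QW y0 y1 • α u) := by
    refine S.eq_of_polar fun y => ?_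
    rw [S.cw_s hX.le hyp hg hgτ hy1 u y, LinearMap.smulRight_apply, LinearMap.smul_apply, polar_smul_right,
      polar_neg_left, polar_smul_left, hα, polarBilin_apply_apply]
  rw [h4, h5, map_neg, map_neg, map_smul, map_smul] at h1
  have h6 : polar QW y0 y1 • (α (β u) - β (α u)) = 0 := by
    rw [smul_sub]
    have : polar QW y0 y1 • α (β u) - polar QW y0 y1 • β (α u) =
      -(-(polar QW y0 y1 • α (β u)) - -(polar QW y0 y1 • β (α u))) := by abel
    rw [this, ← h1, neg_zero]
  exact sub_eq_zero.1 ((smul_eq_zero.1 h6).resolve_left hy)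

/-! ### closure properties -/

theorem inR_sub {w : W} {τ τ' : W →ₗ[F] U →ₗ[F] U} (h : InR t QW X w τ)
    (h' : InR t QW X w τ') : InR t QW X w (τ - τ') := by
  obtain ⟨g, hg, hgt⟩ := h
  obtain ⟨g', hg', hgt'⟩ := h'
  have hi1 : ∀ u, g'⁻¹ (t u w) = t u w := by
    intro u
    have h2 : g'⁻¹ (g' (t u w)) = t u w := LinearEquiv.symm_apply_apply g' _
    rwa [hgt'.1] at h2
  have hi2 : ∀ u z, polar QW w z = 0 → g'⁻¹ (t u z) = t u z - t (τ' z u) w := by
    intro u z hz
    have h1 : g' (t u z - t (τ' z u) w) = t u z := by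
      rw [map_sub, hgt'.2 u z hz, hgt'.1]
      abel
    have h2 : g'⁻¹ (g' (t u z - t (τ' z u) w)) = t u z - t (τ' z u) w := LinearEquiv.symm_apply_apply g' _
    rwa [h1] at h2
  refine ⟨g * g'⁻¹, X.mul_mem hg (X.inv_mem hg'), fun u => ?_, fun u z hz => ?_⟩
  · show g (g'⁻¹ (t u w)) = _
    rw [hi1, hgt.1]
  · show g (g'⁻¹ (t u z)) = _
    rw [hi2 u z hz, map_sub, hgt.2 u z hz, hgt.1]
    simp only [LinearMap.sub_apply, map_sub]
    abel

theorem inR_cj {w : W} {τ : W →ₗ[F] U →ₗ[F] U} (h : InR t QW X w τ) {k : U ≃ₗ[F] U} (hk : rU S.ten k ∈ X)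
    {τ' : W →ₗ[F] U →ₗ[F] U} (hτ' : ∀ z, τ' z = cj k (τ z)) : InR t QW X w τ' := by
  obtain ⟨g, hg, hgt⟩ := h
  have hi : ∀ u z, (rU S.ten k)⁻¹ (t u z) = t (k⁻¹ u) z := fun u z => by rw [← map_inv, rU_apply]
  have h2 : ∀ u, k (k⁻¹ u) = u := fun u => LinearEquiv.apply_symm_apply k u
  refine ⟨rU S.ten k * g * (rU S.ten k)⁻¹, X.mul_mem (X.mul_mem hk hg) (X.inv_mem hk), fun u => ?_,
    fun u z hz => ?_⟩
  · show rU S.ten k (g ((rU S.ten k)⁻¹ (t u w))) = _
    rw [hi, hgt.1, rU_apply, h2]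
  · show rU S.ten k (g ((rU S.ten k)⁻¹ (t u z))) = _
    rw [hi, hgt.2 _ z hz, map_add, rU_apply, rU_apply, h2, hτ', cj_apply]

theorem inR_cjW {w : W} {τ : W →ₗ[F] U →ₗ[F] U} (h : InR t QW X w τ) {l : W ≃ₗ[F] W} (hl : rW S.ten l ∈ X)
    (hlO : l ∈ O QW) (hlw : l w = w) {τ' : W →ₗ[F] U →ₗ[F] U} (hτ' : ∀ z, τ' z = τ (l⁻¹ z)) :
    InR t QW X w τ' := by
  obtain ⟨g, hg, hgt⟩ := h
  have hi : ∀ u z, (rW S.ten l)⁻¹ (t u z) = t u (l⁻¹ z) := fun u z => by rw [← map_inv, rW_apply]
  have h2 : ∀ u, l (l⁻¹ u) = u := fun u => LinearEquiv.apply_symm_apply l u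
  have h3 : l⁻¹ w = w := by
    have : l⁻¹ (l w) = w := LinearEquiv.symm_apply_apply l w
    rwa [hlw] at this
  refine ⟨rW S.ten l * g * (rW S.ten l)⁻¹, X.mul_mem (X.mul_mem hl hg) (X.inv_mem hl), fun u => ?_,
    fun u z hz => ?_⟩
  · show rW S.ten l (g ((rW S.ten l)⁻¹ (t u w))) = _
    rw [hi, h3, hgt.1, rW_apply, hlw]
  · have hz' : polar QW w (l⁻¹ z) = 0 := by
      rw [← polar_map hlO, h2, hlw]; exact hz
    show rW S.ten l (g ((rW S.ten l)⁻¹ (t u z))) = _
    rw [hi, hgt.2 _ _ hz', map_add, rW_apply, rW_apply, h2, hlw, hτ']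

end TSt

end Cfsg.Agent.H882.Ten
end

-- part: H882/Ten/Comm
section
/-!
# Self-adjoint operators commuting with their conjugates under Siegel transformations are scalars
-/

set_option autoImplicit false
set_option linter.unusedSimpArgs false
set_option linter.unusedSectionVars false

namespace Cfsg.Agent.H882.Ten

open QuadraticMap hiding proj
open Cfsg.Agent.LieClassical.OrthCore Cfsg.Agent.LieClassical.OrthTrans

variable {F : Type*} {U : Type*} [Field F] [AddCommGroup U] [Module F U] {Q : QuadraticForm F U}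

/-- Expansion in dimension 3. -/
theorem expand3 (hd : Module.finrank F U = 3) {u u' v : U} (hyp : Hyp Q u u') (h1 : polar Q u v = 0)
    (h2 : polar Q u' v = 0) (hv : polar Q v v ≠ 0) (p : U) :
    p = polar Q u' p • u + polar Q u p • u' + ((polar Q v v)⁻¹ * polar Q v p) • v := by
  have hli : LinearIndependent F ![u, u', v] := by
    rw [Fintype.linearIndependent_iff]
    intro c hc
    rw [Fin.sum_univ_three] at hc
    have hc' : c 0 • u + c 1 • u' + c 2 • v = 0 := hc
    have e1 := congrArg (polar Q u) hc'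
    have e2 := congrArg (polar Q u') hc'
    have e3 := congrArg (polar Q v) hc'
    simp only [polar_add_right, polar_smul_right, hyp.polar_left, hyp.pair, hyp.pair', hyp.polar_right, h1, h2,
      polar_comm Q v u, polar_comm Q v u', polar_zero_right, smul_eq_mul, mul_zero, mul_one, zero_add,
      add_zero] at e1 e2 e3
    have e4 : c 2 = 0 := (mul_eq_zero.1 e3).resolve_right hv
    intro i
    fin_cases i
    · exact e2
    · exact e1
    · exact e4
  have hsp := hli.span_eq_top_of_card_eq_finrank (by simp [hd])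
  have hp : p ∈ Submodule.span F (Set.range ![u, u', v]) := by rw [hsp]; trivial
  rw [Submodule.mem_span_range_iff_exists_fun] at hp
  obtain ⟨c, hc⟩ := hp
  rw [Fin.sum_univ_three] at hc
  have hc' : c 0 • u + c 1 • u' + c 2 • v = p := hc
  have e1 := congrArg (polar Q u) hc'
  have e2 := congrArg (polar Q u') hc'
  have e3 := congrArg (polar Q v) hc'
  simp only [polar_add_right, polar_smul_right, hyp.polar_left, hyp.pair, hyp.pair', hyp.polar_right, h1, h2,
    polar_comm Q v u, polar_comm Q v u', polar_zero_right, smul_eq_mul, mul_zero, mul_one, zero_add,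
    add_zero] at e1 e2 e3
  rw [← e1, ← e2, ← e3, ← hc']
  congr 2
  field_simp

/-- the key computation: `[α, s α s⁻¹] u = 0` for `s = siegel u x`. -/
theorem comm_eq {α : U →ₗ[F] U} (hα : ∀ v v', polar Q (α v) v' = polar Q v (α v')) {u x : U} (hu : Q u = 0)
    (hx : polar Q u x = 0) (hvu : polar Q u (α u) = 0)
    (hc : ∀ p, α (cj (siegel Q u x hu hx) α p) = cj (siegel Q u x hu hx) α (α p)) :
    polar Q (α u) (α u) • x + (2 * polar Q x (α u)) • α u =
      (polar Q x (α (α u)) + Q x * polar Q (α u) (α u) + polar Q x (α u) * polar Q x (α u)) • u := by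
  have h1 := hc u
  have hxu : polar Q x u = 0 := by rw [polar_comm]; exact hx
  have huu : polar Q u u = 0 := polar_self_of_sing hu
  have e1 : polar Q u (α (α u)) = polar Q (α u) (α u) := (hα u (α u)).symm
  simp only [cj_apply, siegel_inv_apply, siegel_apply, map_sub, map_add, map_smul, polar_sub_right,
    polar_add_right, polar_smul_right, hx, hxu, huu, hvu, e1, smul_eq_mul, zero_smul, mul_zero, sub_zero,
    add_zero, zero_add] at h1
  have h2 : α (α u) - polar Q x (α u) • α u -
      (α (α u) + polar Q x (α u) • α u + polar Q (α u) (α u) • x -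
        (polar Q x (α (α u)) + polar Q x (α u) * polar Q x (α u)) • u -
        (Q x * polar Q (α u) (α u)) • u) = 0 := by
    rw [sub_eq_zero, h1]
    module
  have h3 : polar Q (α u) (α u) • x + (2 * polar Q x (α u)) • α u -
      (polar Q x (α (α u)) + Q x * polar Q (α u) (α u) + polar Q x (α u) * polar Q x (α u)) • u =
      -(α (α u) - polar Q x (α u) • α u -
      (α (α u) + polar Q x (α u) • α u + polar Q (α u) (α u) • x -
        (polar Q x (α (α u)) + polar Q x (α u) * polar Q x (α u)) • u -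
        (Q x * polar Q (α u) (α u)) • u)) := by module
  rw [h2, neg_zero, sub_eq_zero] at h3
  exact h3

/-- Dimension 3, characteristic 3. -/
theorem comm_three (h2 : (2 : F) ≠ 0) (h3 : (3 : F) = 0) (hd : Module.finrank F U = 3)
    (hF : ∃ c : F, c ≠ 0 ∧ c * c ≠ 1) {α : U →ₗ[F] U} (hα : ∀ v v', polar Q (α v) v' = polar Q v (α v'))
    {u u' : U} (hyp : Hyp Q u u') (hvu : polar Q u (α u) = 0) (hvu' : polar Q u' (α u) = 0)
    (hv : polar Q (α u) (α u) ≠ 0)
    (hc : ∀ (x : U) (hx : polar Q u x = 0) (p : U),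
      α (cj (siegel Q u x hyp.left hx) α p) = cj (siegel Q u x hyp.left hx) α (α p)) : False := by
  set v := α u with hvdef
  set δ := polar Q v v with hδ
  have huv : polar Q v u = 0 := by rw [polar_comm]; exact hvu
  have hu'v : polar Q v u' = 0 := by rw [polar_comm]; exact hvu'
  have e1 : polar Q u (α v) = δ := (hα u v).symm
  -- `(v, α v) = 0`
  have e2 : polar Q v (α v) = 0 := by
    have h1 := comm_eq hα hyp.left hvu hvu (hc v hvu)
    rw [← hvdef, ← hδ] at h1
    have h4 := congrArg (polar Q u') h1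
    simp only [polar_add_right, polar_smul_right, hvu', hyp.pair', smul_eq_mul, mul_zero, add_zero, mul_one] at h4
    have hQ : Q v = 2⁻¹ * δ := Q_eq_half h2 v
    rw [hQ] at h4
    have h5 : (2 : F)⁻¹ * 2 = 1 := inv_mul_cancel₀ h2
    linear_combination -h4 - (2⁻¹ * δ * δ) * h3 + (δ * δ) * h5
  set ε := polar Q u' (α v) with hε
  have exp := expand3 hd hyp hvu hvu' hv
  have hav : α v = ε • u + δ • u' := by
    have := exp (α v)
    rw [e1, e2] at this
    rw [this, ← hε]
    module
  have f1 : polar Q u (α u') = 0 := by rw [← hα u u']; rw [polar_comm]; exact hvu'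
  have f2 : polar Q v (α u') = ε := by rw [← hα v u', polar_comm]
  set ζ := polar Q u' (α u') with hζ
  have hau' : α u' = ζ • u + (δ⁻¹ * ε) • v := by
    have := exp (α u')
    rw [f1, f2] at this
    rw [this, ← hζ]
    module
  -- the relation for `x = c v`
  have key : ∀ c : F, c * (ε + c * c * (δ * δ)) = 0 := by
    intro c
    have hx : polar Q u (c • v) = 0 := by rw [polar_smul_right, hvu, smul_zero]
    have h1 := hc (c • v) hx u'
    have hQ : Q v = 2⁻¹ * δ := Q_eq_half h2 v
    have h4 := congrArg (polar Q v) h1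
    simp only [cj_apply, siegel_inv_apply, siegel_apply, QuadraticMap.map_smul, hQ, map_sub, map_add, map_smul,
      polar_sub_right, polar_add_right, polar_smul_right, polar_smul_left, polar_sub_left, polar_add_left,
      hyp.polar_left, hyp.pair, hyp.pair', hyp.polar_right, hvu, hvu', huv, hu'v, ← hvdef, hav, hau', ← hδ,
      smul_eq_mul, mul_zero, mul_one, zero_add, add_zero, sub_zero] at h4
    have hi : δ⁻¹ * δ = 1 := inv_mul_cancel₀ hv
    have hJ : (2 : F)⁻¹ * 2 = 1 := inv_mul_cancel₀ h2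
    have h5 : δ * (c * (ε + c * c * (δ * δ))) = 0 := by
      linear_combination h4 + (4 * c * ε * δ) * hi + (2 * c * ε * δ) * h3 - (c * c * c * δ * δ * δ) * hJ
    exact (mul_eq_zero.1 h5).resolve_left hv
  obtain ⟨c, hc0, hc1⟩ := hF
  have k1 := key 1
  have k2 := key c
  have k3 := (mul_eq_zero.1 k2).resolve_left hc0
  have : (c * c - 1) * (δ * δ) = 0 := by linear_combination k3 - k1
  rcases mul_eq_zero.1 this with h | h
  · exact hc1 (by linear_combination h)
  · exact hv (mul_self_eq_zero.1 h)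

/-- **The commuting lemma.** `P` a set of self-adjoint operators, closed under `α ↦ s α s⁻¹ - α` (`s` a Siegel
transformation) and with `[α, s α s⁻¹] = 0`; then `P` consists of scalars. -/
theorem scalar_of_commute [FiniteDimensional F U] (h2 : (2 : F) ≠ 0) (hQ : Nondeg Q)
    (hd : 3 ≤ Module.finrank F U) (hF : 4 ≤ Module.finrank F U ∨ ∃ c : F, c ≠ 0 ∧ c * c ≠ 1)
    {x0 y0 : U} (h0 : Hyp Q x0 y0) (P : (U →ₗ[F] U) → Prop)
    (hsym : ∀ α, P α → ∀ v v', polar Q (α v) v' = polar Q v (α v'))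
    (hcj : ∀ α, P α → ∀ (u x : U) (hu : Q u = 0) (hx : polar Q u x = 0), P (cj (siegel Q u x hu hx) α - α))
    (hcom : ∀ α, P α → ∀ (u x : U) (hu : Q u = 0) (hx : polar Q u x = 0) (p : U),
      α (cj (siegel Q u x hu hx) α p) = cj (siegel Q u x hu hx) α (α p))
    {α : U →ₗ[F] U} (hα : P α) : ∃ c : F, ∀ v, α v = c • v := by
  refine scalar_of_sing h2 hQ hd h0 α ?_
  -- first: no singular `u` with `α u ⊥ u`, `α u ∉ ⟨u⟩`
  have main : ∀ α, P α → ∀ u, Q u = 0 → polar Q u (α u) = 0 → ∃ c : F, α u = c • u := by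
    intro α hα u hu hvu
    by_contra hcon
    push Not at hcon
    have hu0 : u ≠ 0 := by
      rintro rfl
      exact hcon 0 (by simp)
    have hS := hsym α hα
    have hC := hcom α hα
    -- `(v, v) ≠ 0`
    have hv : polar Q (α u) (α u) ≠ 0 := by
      intro hv
      obtain ⟨x, hx, hx2⟩ := exists_sep hQ hcon
      have h1 := comm_eq hS hu hx hvu (hC u x hu hx)
      rw [hv, zero_smul, zero_add, polar_comm Q x, hx2, mul_one] at h1
      refine hcon (2⁻¹ * (polar Q x (α (α u)) + Q x * 0 + 1 * 1)) ?_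
      rw [← smul_smul, ← h1, smul_smul, inv_mul_cancel₀ h2, one_smul]
    obtain ⟨u', hyp⟩ := LieClassical.OrthTrans.exists_hyp hQ hu hu0
    by_cases hd4 : 4 ≤ Module.finrank F U
    · obtain ⟨x, hx0, hx⟩ := exists_perp_ne (Q := Q) ![u, α u, u'] (by omega)
      have hxu : polar Q u x = 0 := hx 0
      have hxv : polar Q (α u) x = 0 := hx 1
      have hxu' : polar Q u' x = 0 := hx 2
      have h1 := comm_eq hS hu hxu hvu (hC u x hu hxu)
      rw [polar_comm Q x (α u), hxv, mul_zero, zero_smul, add_zero, mul_zero, add_zero] at h1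
      have h3 := congrArg (polar Q u') h1
      rw [polar_smul_right, hxu', smul_zero, polar_smul_right, hyp.pair', smul_eq_mul, mul_one] at h3
      rw [← h3, zero_smul] at h1
      exact hx0 ((smul_eq_zero.1 h1).resolve_left hv)
    · have hd3 : Module.finrank F U = 3 := by omega
      have hF' := hF.resolve_left hd4
      by_cases h3 : (3 : F) = 0
      · -- adapt the partner of `u`
        set v := α u with hvdef
        set m := polar Q v u' with hm
        have hvs : polar Q v u = 0 := by rw [polar_comm]; exact hvu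
        -- `u'' = u' - (m/δ) v - (m²/2δ) u`
        set δ := polar Q v v with hδ
        have hQv : Q v = 2⁻¹ * δ := Q_eq_half h2 v
        have hyp' : Hyp Q u (u' - (m * δ⁻¹) • v + (2⁻¹ * m * m * δ⁻¹) • u) := by
          refine ⟨hu, ?_, ?_⟩
          · rw [Q_zero_iff h2]
            simp only [polar_sub_left, polar_sub_right, polar_add_left, polar_add_right, polar_smul_left,
              polar_smul_right, hyp.polar_left,
              hyp.polar_right, hyp.pair, hyp.pair', hvu, hvs, ← hδ, ← hm, polar_comm Q u' v, smul_eq_mul]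
            have hi : δ⁻¹ * δ = 1 := inv_mul_cancel₀ hv
            have hJ : (2 : F)⁻¹ * 2 = 1 := inv_mul_cancel₀ h2
            linear_combination (m * m * δ⁻¹) * hi + (m * m * δ⁻¹) * hJ
          · simp only [polar_sub_right, polar_add_right, polar_smul_right, hyp.polar_left, hyp.pair, hvu, smul_eq_mul, mul_zero,
              sub_zero, add_zero]
        have hv' : polar Q (u' - (m * δ⁻¹) • v + (2⁻¹ * m * m * δ⁻¹) • u) v = 0 := by
          simp only [polar_sub_left, polar_add_left, polar_smul_left, hvu, ← hδ, polar_comm Q u' v, ← hm, smul_eq_mul, mul_zero,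
            sub_zero, add_zero]
          have hi : δ⁻¹ * δ = 1 := inv_mul_cancel₀ hv
          linear_combination -m * hi
        exact comm_three h2 h3 hd3 hF' hS hyp' hvu hv' hv fun x hx p => hC u x hu hx p
      · have h1 := comm_eq hS hu hvu hvu (hC u (α u) hu hvu)
        apply hcon
        have h4 : (3 * polar Q (α u) (α u)) ≠ 0 := mul_ne_zero h3 hv
        have h5 : polar Q (α u) (α u) • α u + (2 * polar Q (α u) (α u)) • α u =
          (3 * polar Q (α u) (α u)) • α u := by module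
        rw [h5] at h1
        have h6 := congrArg (fun z => (3 * polar Q (α u) (α u))⁻¹ • z) h1
        simp only [smul_smul, inv_mul_cancel₀ h4, one_smul] at h6
        exact h6
  intro u hu
  by_contra hcon
  push Not at hcon
  have hu0 : u ≠ 0 := by
    rintro rfl
    exact hcon 0 (by simp)
  by_cases hvu : polar Q u (α u) = 0
  · obtain ⟨c, hc⟩ := main α hα u hu hvu
    exact hcon c hc
  · obtain ⟨u', hyp⟩ := LieClassical.OrthTrans.exists_hyp hQ hu hu0
    obtain ⟨x, hx, hx', hxn⟩ := exists_nonsing_perp hQ hd hyp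
    have hb := hcj α hα u x hu hx
    have hxu : polar Q x u = 0 := by rw [polar_comm]; exact hx
    have huu : polar Q u u = 0 := polar_self_of_sing hu
    have e : (cj (siegel Q u x hu hx) α - α) u = polar Q u (α u) • x -
        (polar Q x (α u) + Q x * polar Q u (α u)) • u := by
      simp only [LinearMap.sub_apply, cj_apply, siegel_inv_apply, siegel_apply, map_sub, map_add, map_smul,
        polar_sub_right, polar_add_right, polar_smul_right, hx, hxu, huu, smul_eq_mul, zero_smul, mul_zero,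
        sub_zero, add_zero, zero_add]
      module
    obtain ⟨c, hc⟩ := main _ hb u hu (by
      rw [e, polar_sub_right, polar_smul_right, polar_smul_right, hx, huu]; simp)
    rw [e] at hc
    have h3 := congrArg (polar Q x) hc
    rw [polar_sub_right, polar_smul_right, polar_smul_right, polar_smul_right, hxu, polar_self'] at h3
    simp only [smul_eq_mul, mul_zero, sub_zero] at h3
    exact mul_ne_zero hvu (mul_ne_zero h2 hxn) h3

end Cfsg.Agent.H882.Ten
end

-- part: H882/Ten/RadFour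
section
/-!
# The unipotent radical of the stabiliser of `U ⊗ w` in a proper overgroup

`rad_le`: if `E Q ≰ X` then the elements of `X` in the radical of the stabiliser of `U ⊗ w` are the
`1 ⊗ siegel w x`.
-/

set_option autoImplicit false
set_option linter.unusedSimpArgs false
set_option linter.unusedSectionVars false

namespace Cfsg.Agent.H882.Ten

open QuadraticMap hiding proj
open Cfsg.Agent.LieClassical.OrthCore Cfsg.Agent.LieClassical.OrthTrans Cfsg.Agent.H883.Root

theorem riesz {F V : Type*} [Field F] [AddCommGroup V] [Module F V] [FiniteDimensional F V]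
    {Q : QuadraticForm F V} (hQ : Nondeg Q) (φ : V →ₗ[F] F) : ∃ x, ∀ z, polar Q x z = φ z := by
  have hinj : Function.Injective (polarBilin Q) := by
    intro x y hxy
    rw [← sub_eq_zero]
    refine hQ _ fun z => ?_
    have := LinearMap.congr_fun hxy z
    rw [polarBilin_apply_apply, polarBilin_apply_apply] at this
    rw [polar_sub_left, this, sub_self]
  have hsurj : Function.Surjective (polarBilin Q) := by
    have hfr : Module.finrank F V = Module.finrank F (V →ₗ[F] F) := by
      rw [Module.finrank_linearMap, Module.finrank_self, mul_one]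
    exact (LinearMap.injective_iff_surjective_of_finrank_eq_finrank hfr).1 hinj
  obtain ⟨x, hx⟩ := hsurj φ
  exact ⟨x, fun z => by rw [← polarBilin_apply_apply, hx]⟩

variable {F : Type*} {U : Type*} {W : Type*} {V : Type*} [Field F] [AddCommGroup U] [Module F U]
  [AddCommGroup W] [Module F W] [AddCommGroup V] [Module F V]
  {t : U →ₗ[F] W →ₗ[F] V} {QU : QuadraticForm F U} {QW : QuadraticForm F W} {Q : QuadraticForm F V}
  {X : Subgroup (V ≃ₗ[F] V)}

namespace TSt

variable (S : TSt t QU QW Q)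

include S

theorem isR_mul_inv {w : W} {g g' : V ≃ₗ[F] V} {τ τ' : W →ₗ[F] U →ₗ[F] U} (hgt : IsR t QW w g τ)
    (hgt' : IsR t QW w g' τ') : IsR t QW w (g * g'⁻¹) (τ - τ') := by
  have hi1 : ∀ u, g'⁻¹ (t u w) = t u w := by
    intro u
    have h2 : g'⁻¹ (g' (t u w)) = t u w := LinearEquiv.symm_apply_apply g' _
    rwa [hgt'.1] at h2
  have hi2 : ∀ u z, polar QW w z = 0 → g'⁻¹ (t u z) = t u z - t (τ' z u) w := by
    intro u z hz
    have h1 : g' (t u z - t (τ' z u) w) = t u z := by
      rw [map_sub, hgt'.2 u z hz, hgt'.1]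
      abel
    have h2 : g'⁻¹ (g' (t u z - t (τ' z u) w)) = t u z - t (τ' z u) w := LinearEquiv.symm_apply_apply g' _
    rwa [h1] at h2
  refine ⟨fun u => ?_, fun u z hz => ?_⟩
  · show g (g'⁻¹ (t u w)) = _
    rw [hi1, hgt.1]
  · show g (g'⁻¹ (t u z)) = _
    rw [hi2 u z hz, map_sub, hgt.2 u z hz, hgt.1]
    simp only [LinearMap.sub_apply, map_sub]
    abel

/-- An element of `X` acting trivially on `U ⊗ w^⊥` is in the centre of the radical. -/
theorem inZ_of_triv (hX : X ≤ O Q) (hQ : Nondeg Q) {w w' : W} (hyp : Hyp QW w w') {g : V ≃ₗ[F] V} (hg : g ∈ X)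
    (h : ∀ u z, polar QW w z = 0 → g (t u z) = t u z) :
    ∃ κ : U →ₗ[F] U, (∀ u z, g (t u z) = t u z + polar QW w z • t (κ u) w) := by
  let κ : U →ₗ[F] U := S.cw w' ∘ₗ ((g : V →ₗ[F] V) - LinearMap.id) ∘ₗ t.flip w'
  have hκ : ∀ u, κ u = S.cw w' (g (t u w') - t u w') := fun u => rfl
  have key : ∀ u, g (t u w') - t u w' = t (κ u) w := by
    intro u
    rw [← sub_eq_zero]
    refine hQ _ fun v => ?_
    have : (polarBilin Q) (g (t u w') - t u w' - t (κ u) w) = 0 := by
      refine ext_t S.ten fun u' z => ?_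
      rw [polarBilin_apply_apply, LinearMap.zero_apply, polar_sub_left]
      set β := polar QW w z with hβ
      have hz0 : polar QW w (z - β • w') = 0 := by rw [polar_sub_right, polar_smul_right, hyp.pair, hβ]; simp
      have e0 : t u' z = t u' (z - β • w') + β • t u' w' := by rw [map_sub, map_smul]; abel
      have e1 : polar Q (g (t u w') - t u w') (t u' (z - β • w')) = 0 := by
        have h1 := polar_map (hX hg) (t u w') (t u' (z - β • w'))
        rw [h _ _ hz0] at h1
        rw [polar_sub_left, h1, sub_self]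
      have e2 : polar Q (g (t u w') - t u w') (t u' w') = polar QU (κ u) u' := by
        rw [S.polar_cw, hκ]
      rw [e0, polar_add_right, polar_add_right, e1, polar_smul_right, polar_smul_right, e2, S.pol, S.pol, hz0,
        hyp.pair]
      simp
    exact LinearMap.congr_fun this v
  refine ⟨κ, fun u z => ?_⟩
  set β := polar QW w z with hβ
  have hz0 : polar QW w (z - β • w') = 0 := by rw [polar_sub_right, polar_smul_right, hyp.pair, hβ]; simp
  have e0 : t u z = t u (z - β • w') + β • t u w' := by rw [map_sub, map_smul]; abel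
  rw [e0, map_add, map_smul, h _ _ hz0, ← key u]
  module

theorem tau_scalar_of_sing [FiniteDimensional F U] (hX : Ovg S X)
    (hexc : 4 ≤ Module.finrank F U ∨ ∃ c : F, c ≠ 0 ∧ c * c ≠ 1) {w : W} (hw : QW w = 0) (hw0 : w ≠ 0)
    (hZ : ∀ κ, InZ t QW X w κ → κ = 0) {τ : W →ₗ[F] U →ₗ[F] U} (h : InR t QW X w τ) {y0 : W}
    (hy0 : QW y0 = 0) (hwy0 : polar QW w y0 = 0) : ∃ c : F, ∀ u, τ y0 u = c • u := by
  by_cases hmul : ∃ c : F, y0 = c • w
  · obtain ⟨c, rfl⟩ := hmul
    obtain ⟨g, hg, hgτ⟩ := h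
    refine ⟨0, fun u => ?_⟩
    rw [map_smul, LinearMap.smul_apply, S.tau_self hw hw0 hgτ]
    simp
  push Not at hmul
  obtain ⟨y, hy1, hy2⟩ := exists_sep S.ndW hmul
  have hyp0 : Hyp QW y0 (y + (-QW y) • y0) := by
    refine ⟨hy0, ?_, ?_⟩
    · rw [Q_add, QuadraticMap.map_smul, hy0, polar_smul_right, polar_comm QW y y0, hy2]
      simp
    · rw [polar_add_right, polar_smul_right, polar_self_of_sing hy0, hy2]
      simp
  set y0' := y + (-QW y) • y0 with hy0'
  have hwy0' : polar QW w y0' = 0 := by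
    rw [hy0', polar_add_right, polar_smul_right, hy1, hwy0]; simp
  obtain ⟨w'', hyp1, hw1, hw2⟩ := exists_hyp_perp S.ndW hyp0 hw hw0 (by rw [polar_comm]; exact hwy0)
    (by rw [polar_comm]; exact hwy0')
  obtain ⟨a, c, ⟨a1, a2, a3, -⟩, ⟨c1, c2, c3, -⟩, hac⟩ := exists_perp4 S.ndW hX.hW.dim hyp0 hyp1
    (by rw [polar_comm]; exact hwy0) hw1 (by rw [polar_comm]; exact hwy0') hw2
  obtain ⟨z1, hz1, hz2, hz3, hz4⟩ : ∃ z1, polar QW y0 z1 = 0 ∧ polar QW y0' z1 = 0 ∧ polar QW w z1 = 0 ∧
      QW z1 ≠ 0 := by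
    rcases exists_nonsing hac with h | h | h
    · exact ⟨a, a1, a2, a3, h⟩
    · exact ⟨c, c1, c2, c3, h⟩
    · exact ⟨a + c, by rw [polar_add_right, a1, c1, add_zero], by rw [polar_add_right, a2, c2, add_zero],
        by rw [polar_add_right, a3, c3, add_zero], h⟩
  have hy0w : polar QW y0 w = 0 := by rw [polar_comm]; exact hwy0
  have hy0'w : polar QW y0' w = 0 := by rw [polar_comm]; exact hwy0'
  have hz1w : polar QW z1 w = 0 := by rw [polar_comm]; exact hz3
  -- first: `y0 ⊗ α₀`
  have hα0 : InR t QW X w ((polarBilin QW y0).smulRight ((-(2 * QW z1)) • τ y0)) := by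
    set l := siegel QW y0 z1 hy0 hz1 with hl
    have hlX : Ten.rW S.ten l ∈ X := hX.rW _ (siegel_mem_E hy0 hz1)
    have hlO : l ∈ O QW := siegel_mem_O hy0 hz1
    have hlw : l w = w := by rw [hl, siegel_apply, hy0w, hz1w]; simp
    have h1 : InR t QW X w (τ ∘ₗ (l⁻¹ : W ≃ₗ[F] W).toLinearMap - τ) :=
      S.inR_sub (S.inR_cjW h hlX hlO hlw (fun z => rfl)) h
    have h2 : InR t QW X w ((τ ∘ₗ (l⁻¹ : W ≃ₗ[F] W).toLinearMap - τ) ∘ₗ (l⁻¹ : W ≃ₗ[F] W).toLinearMap -
        (τ ∘ₗ (l⁻¹ : W ≃ₗ[F] W).toLinearMap - τ)) :=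
      S.inR_sub (S.inR_cjW h1 hlX hlO hlw (fun z => rfl)) h1
    have e : (τ ∘ₗ (l⁻¹ : W ≃ₗ[F] W).toLinearMap - τ) ∘ₗ (l⁻¹ : W ≃ₗ[F] W).toLinearMap -
        (τ ∘ₗ (l⁻¹ : W ≃ₗ[F] W).toLinearMap - τ) = (polarBilin QW y0).smulRight ((-(2 * QW z1)) • τ y0) := by
      ext z u
      have e1 : ∀ z, l⁻¹ z = z - polar QW y0 z • z1 + polar QW z1 z • y0 - (QW z1 * polar QW y0 z) • y0 :=
        fun z => siegel_inv_apply hy0 hz1 z
      have e2 : l⁻¹ (l⁻¹ z) - l⁻¹ z - (l⁻¹ z - z) = (-(2 * QW z1) * polar QW y0 z) • y0 := by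
        have f1 : polar QW z1 y0 = 0 := by rw [polar_comm]; exact hz1
        simp only [e1, polar_sub_right, polar_add_right, polar_smul_right, hz1, f1, polar_self_of_sing hy0,
          polar_self' z1, smul_eq_mul]
        module
      have e3 := congrArg (fun z => τ z u) e2
      simp only [map_sub, map_smul, LinearMap.sub_apply, LinearMap.smul_apply] at e3
      simp only [LinearMap.sub_apply, LinearMap.comp_apply, LinearEquiv.coe_coe, LinearMap.smulRight_apply,
        LinearMap.smul_apply, polarBilin_apply_apply]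
      rw [e3]
      module
    rwa [e] at h2
  -- transfer from `y0` to a multiple of `y0'`
  have htr : ∀ β : U →ₗ[F] U, InR t QW X w ((polarBilin QW y0).smulRight β) →
      InR t QW X w ((polarBilin QW (-(QW z1) • y0')).smulRight β) := by
    intro β hβ
    set z := y0 + z1 - QW z1 • y0' with hz
    have hzs : QW z = 0 := sing_vec hyp0 hz1 hz2
    have hzw : polar QW z w = 0 := by
      rw [hz, polar_sub_left, polar_add_left, polar_smul_left, hy0w, hz1w, hy0'w]; simp
    have hzy0 : polar QW z y0 = -(QW z1) := by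
      rw [hz, polar_sub_left, polar_add_left, polar_smul_left, hyp0.polar_left, polar_comm QW z1, hz1, hyp0.pair']
      simp
    have hzy0' : polar QW z y0' = 1 := by
      rw [hz, polar_sub_left, polar_add_left, polar_smul_left, hyp0.polar_right, polar_comm QW z1, hz2, hyp0.pair]
      simp
    have hn : -(QW z1) ≠ 0 := neg_ne_zero.2 hz4
    set x := y0' - (-(QW z1))⁻¹ • y0 with hx
    have hzx : polar QW z x = 0 := by
      rw [hx, polar_sub_right, polar_smul_right, hzy0, hzy0', smul_eq_mul, inv_mul_cancel₀ hn, sub_self]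
    have hxw : polar QW x w = 0 := by
      rw [hx, polar_sub_left, polar_smul_left, hy0w, hy0'w]; simp
    set l := siegel QW z x hzs hzx with hl
    have hlX : Ten.rW S.ten l ∈ X := hX.rW _ (siegel_mem_E hzs hzx)
    have hlO : l ∈ O QW := siegel_mem_O hzs hzx
    have hlw : l w = w := by rw [hl, siegel_apply, hzw, hxw]; simp
    have hly0 : l y0 = -(QW z1) • y0' := by
      have hxy0 : polar QW x y0 = 1 := by
        rw [hx, polar_sub_left, polar_smul_left, hyp0.polar_left, hyp0.pair']; simp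
      have hQx : QW x = - (-(QW z1))⁻¹ := by
        rw [hx, sub_eq_add_neg, ← neg_smul, Q_add, QuadraticMap.map_smul, hyp0.left, hyp0.right,
          polar_smul_right, hyp0.pair']
        simp
      rw [hl, siegel_apply, hzy0, hxy0, hQx, hx, hz]
      have hi : (QW z1)⁻¹ * QW z1 = 1 := inv_mul_cancel₀ hz4
      have hi2 : (-(QW z1))⁻¹ * (-(QW z1)) = 1 := inv_mul_cancel₀ hn
      rw [neg_mul, hi2, smul_sub, smul_smul, mul_inv_cancel₀ hn]
      module
    refine S.inR_cjW hβ hlX hlO hlw fun z' => ?_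
    ext u
    simp only [LinearMap.smulRight_apply, LinearMap.smul_apply, polarBilin_apply_apply]
    rw [← hly0, ← polar_map hlO y0 (l⁻¹ z')]
    have : l (l⁻¹ z') = z' := LinearEquiv.apply_symm_apply l z'
    rw [this]
  have hpy : polar QW y0 (-(QW z1) • y0') ≠ 0 := by
    rw [polar_smul_right, hyp0.pair, smul_eq_mul, mul_one]
    exact neg_ne_zero.2 hz4
  -- the set of operators
  have hsym : ∀ α : U →ₗ[F] U, InR t QW X w ((polarBilin QW y0).smulRight α) →
      ∀ v v', polar QU (α v) v' = polar QU v (α v') := by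
    intro α hα v v'
    have := S.tau_symm hX hw hw0 hZ hα hwy0' v v'
    simpa [hyp0.pair] using this
  have hcjm : ∀ (α : U →ₗ[F] U) (k : U ≃ₗ[F] U), Ten.rU S.ten k ∈ X →
      InR t QW X w ((polarBilin QW y0).smulRight α) → InR t QW X w ((polarBilin QW y0).smulRight (cj k α)) := by
    intro α k hk hα
    refine S.inR_cj hα hk fun z => ?_
    ext u
    simp only [LinearMap.smulRight_apply, LinearMap.smul_apply, cj_apply, map_smul]
  have hsc := scalar_of_commute S.two S.ndU hX.dU hexc hX.sU.choose_spec.choose_spec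
    (fun α => InR t QW X w ((polarBilin QW y0).smulRight α)) hsym
    (by
      intro α hα u x hu hx
      have h1 := S.inR_sub (hcjm α _ (hX.rU _ (siegel_mem_E hu hx)) hα) hα
      have e : (polarBilin QW y0).smulRight (cj (siegel QU u x hu hx) α) - (polarBilin QW y0).smulRight α =
          (polarBilin QW y0).smulRight (cj (siegel QU u x hu hx) α - α) := by
        ext z u
        simp only [LinearMap.smulRight_apply, LinearMap.smul_apply, LinearMap.sub_apply, smul_sub]
      rwa [e] at h1)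
    (by
      intro α hα u x hu hx p
      have h1 := hcjm α _ (hX.rU _ (siegel_mem_E hu hx)) hα
      exact S.tau_commute hX hw hw0 hZ hwy0 (by rw [polar_smul_right, hwy0', smul_zero]) hpy hα (htr _ h1)
        (hsym _ hα) (hsym _ h1) p)
    hα0
  obtain ⟨c, hc⟩ := hsc
  have hn : (-(2 * QW z1)) ≠ 0 := neg_ne_zero.2 (mul_ne_zero S.two hz4)
  refine ⟨(-(2 * QW z1))⁻¹ * c, fun u => ?_⟩
  have h1 := hc u
  rw [LinearMap.smul_apply] at h1
  rw [← smul_smul, ← h1, smul_smul, inv_mul_cancel₀ hn, one_smul]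

/-- **The radical of the stabiliser of `U ⊗ w` in a proper overgroup.** -/
theorem rad_le [FiniteDimensional F U] [FiniteDimensional F W] (hX : Ovg S X) (hPU : PU QU)
    (hexc : 4 ≤ Module.finrank F U ∨ ∃ c : F, c ≠ 0 ∧ c * c ≠ 1) (hne : ¬ E Q ≤ X) {w : W} (hw : QW w = 0)
    (hw0 : w ≠ 0) {g : V ≃ₗ[F] V} (hg : g ∈ X) (h1 : ∀ u, g (t u w) = t u w)
    (h2 : ∀ u z, polar QW w z = 0 → ∃ u', g (t u z) = t u z + t u' w) :
    ∃ (x : W) (hx : polar QW w x = 0), g = Ten.rW S.ten (siegel QW w x hw hx) := by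
  have hZ : ∀ κ, InZ t QW X w κ → κ = 0 := by
    intro κ hκ
    by_contra h0
    exact hne (S.E_le_of_inZ hX hPU hw hw0 hκ h0)
  obtain ⟨w', hyp⟩ := LieClassical.OrthTrans.exists_hyp S.ndW hw hw0
  let τ : W →ₗ[F] U →ₗ[F] U := (t.flip).compr₂ (S.cw w' ∘ₗ ((g : V →ₗ[F] V) - LinearMap.id))
  have hτ : ∀ z u, τ z u = S.cw w' (g (t u z) - t u z) := fun z u => rfl
  have hgτ : IsR t QW w g τ := by
    refine ⟨h1, fun u z hz => ?_⟩
    obtain ⟨u', hu'⟩ := h2 u z hz
    have : τ z u = u' := by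
      rw [hτ, hu', add_sub_cancel_left, S.cw_t, hyp.pair', one_smul]
    rw [this]
    exact hu'
  have hIn : InR t QW X w τ := ⟨g, hg, hgτ⟩
  -- all parameters are scalars
  have hscal : ∀ y, polar QW w y = 0 → ∃ c : F, ∀ u, τ y u = c • u := by
    obtain ⟨z0, z0', hyp2, q1, q2, q3, q4⟩ := hX.hW.exists_hyp2 hyp
    have hperp : ∀ v, polar QW w v = 0 → polar QW w' v = 0 → ∃ c : F, ∀ u, τ v u = c • u := by
      intro v
      refine sing_induction_perp hyp2 q1 q2 q3 q4 (P := fun v => ∃ c : F, ∀ u, τ v u = c • u) ?_ ?_ v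
      · rintro a c _ _ _ _ ⟨c1, h1⟩ ⟨c2, h2⟩
        refine ⟨c1 + c2, fun u => ?_⟩
        rw [map_add, LinearMap.add_apply, h1, h2, add_smul]
      · intro a ha ha1 _
        exact S.tau_scalar_of_sing hX hexc hw hw0 hZ hIn ha ha1
    intro y hy
    have e : y = LieClassical.OrthTrans.proj QW w w' y + polar QW w' y • w := by
      rw [LieClassical.OrthTrans.proj, hy]; module
    obtain ⟨c, hc⟩ := hperp _ (polar_proj_left hyp y) (polar_proj_right hyp y)
    refine ⟨c, fun u => ?_⟩
    rw [e, map_add, map_smul, LinearMap.add_apply, LinearMap.smul_apply, hc, S.tau_self hw hw0 hgτ]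
    simp
  -- the vector `x`
  obtain ⟨u0, u0', hyp0⟩ := hX.sU
  obtain ⟨x, hx⟩ := riesz S.ndW (-(((polarBilin QU).flip u0') ∘ₗ (LinearMap.applyₗ u0) ∘ₗ τ))
  have hx' : ∀ z, polar QW x z = - polar QU (τ z u0) u0' := fun z => hx z
  have hxw : polar QW w x = 0 := by
    rw [polar_comm, hx', S.tau_self hw hw0 hgτ, polar_zero_left, neg_zero]
  have hval : ∀ z, polar QW w z = 0 → ∀ u, τ z u = -(polar QW x z) • u := by
    intro z hz u
    obtain ⟨c, hc⟩ := hscal z hz
    rw [hx', hc, hc, polar_smul_left, hyp0.pair]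
    simp
  refine ⟨x, hxw, ?_⟩
  -- compare
  set g0 := Ten.rW S.ten (siegel QW w x hw hxw) with hg0
  have hg0X : g0 ∈ X := hX.rW _ (siegel_mem_E hw hxw)
  have h3 := S.isR_mul_inv hgτ (S.isR_siegel hw hxw)
  have h4 : ∀ u z, polar QW w z = 0 → (g * g0⁻¹) (t u z) = t u z := by
    intro u z hz
    rw [h3.2 u z hz]
    have : (τ - -(polarBilin QW x).smulRight (LinearMap.id : U →ₗ[F] U)) z u = 0 := by
      simp only [LinearMap.sub_apply, LinearMap.neg_apply, LinearMap.smulRight_apply, LinearMap.smul_apply,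
        LinearMap.id_apply, polarBilin_apply_apply, hval z hz]
      module
    rw [this, map_zero, LinearMap.zero_apply, add_zero]
  have h5 : g * g0⁻¹ ∈ X := X.mul_mem hg (X.inv_mem hg0X)
  obtain ⟨κ, hκ⟩ := S.inZ_of_triv hX.le hX.hG.nondeg hyp h5 h4
  have hκ0 := hZ κ ⟨_, h5, hκ⟩
  have h6 : g * g0⁻¹ = 1 := by
    refine ext_t' S.ten fun u z => ?_
    rw [hκ, hκ0]
    simp
  exact mul_inv_eq_one.1 h6

end TSt

end Cfsg.Agent.H882.Ten
end
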