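import Cfsg.Agent.H882.Ten.RadFour
set_option linter.all false

/-!
# The stabiliser of `U ⊗ w` in a proper overgroup is contained in the tensor group
-/

set_option autoImplicit false
set_option linter.unusedSimpArgs false
set_option linter.unusedSectionVars false

namespace Cfsg.Agent.H882.Ten

open QuadraticMap hiding proj
open Cfsg.Agent.LieClassical.OrthCore Cfsg.Agent.LieClassical.OrthTrans Cfsg.Agent.H883.Root

/-- An element with `(g - 1)^3 = 0` is a square of a power of itself (odd characteristic). -/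
theorem exists_sq_of_cube {F V : Type*} [Field F] [Finite F] [AddCommGroup V] [Module F V] (h2 : (2 : F) ≠ 0)
    {g : V ≃ₗ[F] V} (h : ∀ v, g (g (g v) - g v) - (g (g v) - g v) - (g (g v - v) - (g v - v)) = 0) :
    ∃ n : ℕ, g = g ^ n * g ^ n := by
  obtain ⟨p, hp⟩ := CharP.exists F
  have hpp : p.Prime := CharP.char_is_prime F p
  have : Fact p.Prime := ⟨hpp⟩
  have hp2 : p ≠ 2 := by
    rintro rfl
    apply h2
    have := CharP.cast_eq_zero F 2
    exact_mod_cast this
  have hp3 : 3 ≤ p := by have := hpp.two_le; omega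
  by_cases hV : Nontrivial V
  · have : CharP (Module.End F V) p := by
      exact charP_of_injective_algebraMap (algebraMap F (Module.End F V)).injective p
    let a : Module.End F V := g.toLinearMap
    have h3 : (a - 1) ^ 3 = 0 := by
      ext v
      have h1 := h v
      simp only [pow_succ, pow_zero, one_mul, Module.End.mul_apply, LinearMap.sub_apply, Module.End.one_apply]
      show (g (g (g v - v) - (g v - v)) - (g (g v - v) - (g v - v))) = 0
      rw [← h1]
      simp only [map_sub]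
    have h4 : a ^ p = 1 := by
      have h5 : (a - 1) ^ p = a ^ p - 1 := by
        have := sub_pow_char_of_commute (p := p) (x := a) (y := 1) (Commute.one_right a)
        rwa [one_pow] at this
      have h6 : (a - 1) ^ p = 0 := by
        obtain ⟨k, rfl⟩ := Nat.exists_eq_add_of_le hp3
        rw [pow_add, h3, zero_mul]
      rw [h6] at h5
      exact (sub_eq_zero.1 h5.symm)
    have h7 : g ^ p = 1 := by
      ext v
      have h8 : ∀ n : ℕ, ∀ v, (g ^ n) v = (a ^ n) v := by
        intro n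
        induction n with
        | zero => intro v; rfl
        | succ n ih =>
          intro v
          rw [pow_succ, pow_succ]
          show (g ^ n) (g v) = (a ^ n) (a v)
          rw [ih]; rfl
      rw [h8, h4]; rfl
    obtain ⟨m, hm⟩ := hpp.odd_of_ne_two hp2
    refine ⟨m + 1, ?_⟩
    rw [← pow_add]
    have : m + 1 + (m + 1) = p + 1 := by omega
    rw [this, pow_succ, h7, one_mul]
  · have : Subsingleton V := not_nontrivial_iff_subsingleton.1 hV
    refine ⟨0, ?_⟩
    ext v
    exact Subsingleton.elim _ _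

variable {F : Type*} {U : Type*} {W : Type*} {V : Type*} [Field F] [AddCommGroup U] [Module F U]
  [AddCommGroup W] [Module F W] [AddCommGroup V] [Module F V]
  {t : U →ₗ[F] W →ₗ[F] V} {QU : QuadraticForm F U} {QW : QuadraticForm F W} {Q : QuadraticForm F V}
  {X : Subgroup (V ≃ₗ[F] V)}

/-- The standing hypotheses on a proper overgroup `X` of the tensor group in `E Q`. -/
structure Prop1 (S : TSt t QU QW Q) (X : Subgroup (V ≃ₗ[F] V)) : Prop where
  le : X ≤ E Q
  ge : TT t S.ten ⊓ E Q ≤ X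
  ne : ¬ E Q ≤ X
  hW : Good QW
  hG : Good Q
  dU : 3 ≤ Module.finrank F U
  sU : ∃ x y : U, Hyp QU x y
  pU : PU QU
  exc : 4 ≤ Module.finrank F U ∨ ∃ c : F, c ≠ 0 ∧ c * c ≠ 1

namespace TSt

variable (S : TSt t QU QW Q)

include S

theorem ovg [FiniteDimensional F V] (hX : Prop1 S X) : Ovg S X where
  le := hX.le.trans E_le_O
  rU := by
    have h : (E QU).map (Ten.rU S.ten) ≤ X := by
      rw [E, MonoidHom.map_closure, Subgroup.closure_le]
      rintro _ ⟨_, ⟨u, x, hu, hx, rfl⟩, rfl⟩
      exact hX.ge ⟨tm_mem_TT _ _ _, S.rU_siegel_mem_E hX.hG hu hx⟩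
    intro k hk
    exact h ⟨k, hk, rfl⟩
  rW := fun l hl => hX.ge ⟨tm_mem_TT _ _ _, S.rW_mem_E hX.hG hX.hW hl⟩
  hW := hX.hW
  hG := hX.hG
  dU := hX.dU
  sU := hX.sU

/-- A vector orthogonal to `U ⊗ w^⊥` lies in `U ⊗ w`. -/
theorem eq_t_of_perp (hQ : Nondeg Q) {w w' : W} (hyp : Hyp QW w w') {v : V}
    (h : ∀ y, polar QW w y = 0 → S.cw y v = 0) : v = t (S.cw w' v) w := by
  rw [← sub_eq_zero]
  refine hQ _ fun v' => ?_
  have : (polarBilin Q) (v - t (S.cw w' v) w) = 0 := by
    refine ext_t S.ten fun u z => ?_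
    rw [polarBilin_apply_apply, LinearMap.zero_apply, polar_sub_left]
    set β := polar QW w z with hβ
    have hz0 : polar QW w (z - β • w') = 0 := by rw [polar_sub_right, polar_smul_right, hyp.pair, hβ]; simp
    have e0 : t u z = t u (z - β • w') + β • t u w' := by rw [map_sub, map_smul]; abel
    rw [e0, polar_add_right, polar_add_right, polar_smul_right, polar_smul_right, S.polar_cw, h _ hz0,
      polar_zero_left, S.polar_cw, S.pol, S.pol, hz0, hyp.pair]
    simp
  exact LinearMap.congr_fun this v'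

/-- The vectors of `(U ⊗ w)^⊥` are stable under the stabiliser. -/
theorem cw_zero_of_stab {w : W} {g : V ≃ₗ[F] V} (hg : g ∈ O Q)
    (hgs : ∀ u, ∃ u', g⁻¹ (t u w) = t u' w) {v : V} (hv : S.cw w v = 0) : S.cw w (g v) = 0 := by
  rw [S.cw_eq_zero_iff] at hv ⊢
  intro u
  obtain ⟨u', hu'⟩ := hgs u
  have h1 := polar_map hg v (g⁻¹ (t u w))
  have h2 : g (g⁻¹ (t u w)) = t u w := LinearEquiv.apply_symm_apply g _
  rw [h2, hu', hv] at h1
  exact h1

theorem siegel_on_perp {w x : W} (hw : QW w = 0) (hx : polar QW w x = 0) {w' : W} (hyp : Hyp QW w w')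
    {v : V} (hv : S.cw w v = 0) : Ten.rW S.ten (siegel QW w x hw hx) v = v - t (S.cw x v) w := by
  rw [S.isR_apply hyp (S.isR_siegel hw hx) hv]
  have : S.hat (-(polarBilin QW x).smulRight (LinearMap.id : U →ₗ[F] U)) = - S.cw x := by
    refine ext_t S.ten fun u z => ?_
    rw [S.hat_t, LinearMap.neg_apply, LinearMap.neg_apply, LinearMap.neg_apply, S.cw_t]
    rfl
  rw [this, LinearMap.neg_apply, map_neg, LinearMap.neg_apply]
  abel

/-- Conjugation of `1 ⊗ siegel w x` by an element stabilising `U ⊗ w`. -/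
theorem conj_siegel [FiniteDimensional F U] [FiniteDimensional F W] [FiniteDimensional F V] (hX : Prop1 S X)
    {w : W} (hw : QW w = 0) (hw0 : w ≠ 0) {g : V ≃ₗ[F] V} (hg : g ∈ X)
    (hgs : ∀ u, ∃ u', g (t u w) = t u' w) (hgs' : ∀ u, ∃ u', g⁻¹ (t u w) = t u' w)
    {x : W} (hx : polar QW w x = 0) :
    ∃ (y : W) (hy : polar QW w y = 0), g * Ten.rW S.ten (siegel QW w x hw hx) * g⁻¹ =
      Ten.rW S.ten (siegel QW w y hw hy) := by
  have hO := S.ovg hX
  obtain ⟨w', hyp⟩ := LieClassical.OrthTrans.exists_hyp S.ndW hw hw0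
  have hdX := hO.rW _ (siegel_mem_E hw hx)
  refine S.rad_le hO hX.pU hX.exc hX.ne hw hw0 (X.mul_mem (X.mul_mem hg hdX) (X.inv_mem hg)) ?_ ?_
  · intro u
    obtain ⟨u', hu'⟩ := hgs' u
    show g (Ten.rW S.ten (siegel QW w x hw hx) (g⁻¹ (t u w))) = _
    rw [hu', (S.isR_siegel hw hx).1, ← hu']
    exact LinearEquiv.apply_symm_apply g _
  · intro u z hz
    have hv : S.cw w (g⁻¹ (t u z)) = 0 := by
      refine S.cw_zero_of_stab (hO.le (X.inv_mem hg)) ?_ ?_
      · intro u; rw [inv_inv]; exact hgs u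
      · rw [S.cw_t, hz, zero_smul]
    obtain ⟨u', hu'⟩ := hgs (-(S.cw x (g⁻¹ (t u z))))
    refine ⟨u', ?_⟩
    show g (Ten.rW S.ten (siegel QW w x hw hx) (g⁻¹ (t u z))) = _
    rw [S.siegel_on_perp hw hx hyp hv, map_sub]
    have h1 : g (g⁻¹ (t u z)) = t u z := LinearEquiv.apply_symm_apply g _
    rw [h1, ← hu', map_neg, LinearMap.neg_apply, map_neg]
    abel

/-- **The stabiliser of `U ⊗ w` in `X` consists of elements `k ⊗ l`.** -/
theorem stab_le [Finite F] [FiniteDimensional F U] [FiniteDimensional F W] [FiniteDimensional F V]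
    (hX : Prop1 S X) {w : W} (hw : QW w = 0) (hw0 : w ≠ 0) {g : V ≃ₗ[F] V} (hg : g ∈ X)
    (hgs : ∀ u, ∃ u', g (t u w) = t u' w) : g ∈ TT t S.ten := by
  have hO := S.ovg hX
  have hgO := hO.le hg
  obtain ⟨w', hyp⟩ := LieClassical.OrthTrans.exists_hyp S.ndW hw hw0
  -- the action on `U ⊗ w`
  let kA : U →ₗ[F] U := S.cw w' ∘ₗ (g : V →ₗ[F] V) ∘ₗ t.flip w
  have hkA : ∀ u, g (t u w) = t (kA u) w := by
    intro u
    obtain ⟨u', hu'⟩ := hgs u
    have : kA u = u' := by
      show S.cw w' (g (t u w)) = u'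
      rw [hu', S.cw_t, hyp.pair', one_smul]
    rw [this, hu']
  have hkinj : Function.Injective kA := by
    intro a b hab
    have h1 : g (t a w) = g (t b w) := by rw [hkA, hkA, hab]
    exact t_left_inj S.ten hw0 (g.injective h1)
  have hksurj : Function.Surjective kA := LinearMap.injective_iff_surjective.1 hkinj
  have hgs' : ∀ u, ∃ u', g⁻¹ (t u w) = t u' w := by
    intro u
    obtain ⟨u', hu'⟩ := hksurj u
    refine ⟨u', ?_⟩
    rw [← hu', ← hkA]
    exact LinearEquiv.symm_apply_apply g _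
  have hperp : ∀ v, S.cw w v = 0 → S.cw w (g v) = 0 := fun v hv => S.cw_zero_of_stab hgO hgs' hv
  -- the relation
  have hrel : ∀ y, polar QW w y = 0 → ∃ x, polar QW w x = 0 ∧ ∀ v, S.cw w v = 0 →
      S.cw y (g v) = kA (S.cw x v) := by
    intro y hy
    obtain ⟨x, hx, hxy⟩ := S.conj_siegel hX hw hw0 (X.inv_mem hg) hgs' (by rw [inv_inv]; exact hgs) hy
    refine ⟨x, hx, fun v hv => ?_⟩
    have h1 : Ten.rW S.ten (siegel QW w y hw hy) (g v) = g (Ten.rW S.ten (siegel QW w x hw hx) v) := by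
      rw [← hxy, inv_inv]
      show _ = g (g⁻¹ (Ten.rW S.ten (siegel QW w y hw hy) (g v)))
      exact (LinearEquiv.apply_symm_apply g _).symm
    rw [S.siegel_on_perp hw hy hyp (hperp v hv), S.siegel_on_perp hw hx hyp hv, map_sub, hkA] at h1
    exact t_left_inj S.ten hw0 (sub_right_injective h1)
  -- the map `h`
  obtain ⟨a0, a0', hyp0⟩ := hX.sU
  obtain ⟨u0, hu0⟩ := hksurj a0
  let h : W →ₗ[F] W := S.cu a0' ∘ₗ (g : V →ₗ[F] V) ∘ₗ t u0
  have hh : ∀ z, h z = S.cu a0' (g (t u0 z)) := fun z => rfl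
  have hcwz : ∀ u z, polar QW w z = 0 → S.cw w (t u z) = 0 := fun u z hz => by rw [S.cw_t, hz, zero_smul]
  have hhw : ∀ z, polar QW w z = 0 → polar QW w (h z) = 0 := by
    intro z hz
    rw [polar_comm, hh, ← S.polar_cu, S.polar_cw, hperp _ (hcwz u0 z hz), polar_zero_left]
  have hhw0 : h w = w := by
    rw [hh, hkA, hu0, S.cu_t, hyp0.pair', one_smul]
  -- `g (u ⊗ z) = kA u ⊗ h z` modulo `U ⊗ w`
  have hmod : ∀ u z, polar QW w z = 0 → ∃ u', g (t u z) = t (kA u) (h z) + t u' w := by
    intro u z hz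
    refine ⟨S.cw w' (g (t u z) - t (kA u) (h z)), ?_⟩
    have h1 := S.eq_t_of_perp hX.hG.nondeg hyp (v := g (t u z) - t (kA u) (h z)) (by
      intro y hy
      obtain ⟨x, hx, hxy⟩ := hrel y hy
      have e1 := hxy (t u z) (hcwz u z hz)
      have e2 := hxy (t u0 z) (hcwz u0 z hz)
      rw [S.cw_t] at e1 e2
      have e3 : polar QW y (h z) = polar QW x z := by
        rw [polar_comm, hh, ← S.polar_cu, S.polar_cw, e2, map_smul, hu0, polar_smul_left, hyp0.pair]
        simp
      rw [map_sub, e1, S.cw_t, e3, map_smul, sub_self])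
    rw [← h1]; abel
  -- similitude
  obtain ⟨z0, z0', hyp2, q1, q2, q3, q4⟩ := hX.hW.exists_hyp2 hyp
  have hform : ∀ u u' z z', polar QW w z = 0 → polar QW w z' = 0 →
      polar QU (kA u) (kA u') * polar QW (h z) (h z') = polar QU u u' * polar QW z z' := by
    intro u u' z z' hz hz'
    obtain ⟨a, ha⟩ := hmod u z hz
    obtain ⟨b, hb⟩ := hmod u' z' hz'
    have h1 := polar_map hgO (t u z) (t u' z')
    rw [ha, hb] at h1
    simp only [polar_add_left, polar_add_right, S.pol, hhw z' hz', polar_comm QW (h z) w, hhw z hz,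
      polar_self_of_sing hw] at h1
    linear_combination h1
  have hc1 : polar QU (kA a0) (kA a0') * polar QW (h z0) (h z0') = 1 := by
    rw [hform a0 a0' z0 z0' q1 q2, hyp0.pair, hyp2.pair, one_mul]
  set c := polar QU (kA a0) (kA a0') with hc
  have hc0 : c ≠ 0 := left_ne_zero_of_mul_eq_one hc1
  have hc' : polar QW (h z0) (h z0') = c⁻¹ := eq_inv_of_mul_eq_one_right hc1
  have hkform : ∀ u u', polar QU (kA u) (kA u') = c * polar QU u u' := by
    intro u u'
    have h1 := hform u u' z0 z0' q1 q2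
    rw [hc', hyp2.pair, mul_one] at h1
    rw [← h1]
    field_simp
  have hhform : ∀ z z', polar QW w z = 0 → polar QW w z' = 0 →
      polar QW (h z) (h z') = c⁻¹ * polar QW z z' := by
    intro z z' hz hz'
    have h1 := hform a0 a0' z z' hz hz'
    rw [← hc, hyp0.pair, one_mul] at h1
    rw [← h1]
    field_simp
  -- the map `l`
  let pr : W →ₗ[F] W := LinearMap.id - (polarBilin QW w').smulRight w - (polarBilin QW w).smulRight w'
  have hpr : ∀ z, pr z = z - polar QW w' z • w - polar QW w z • w' := fun z => rfl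
  have hprw : ∀ z, polar QW w (pr z) = 0 := fun z => by
    rw [hpr, polar_sub_right, polar_sub_right, polar_smul_right, polar_smul_right, hyp.pair,
      polar_self_of_sing hw]; simp
  have hprw' : ∀ z, polar QW w' (pr z) = 0 := fun z => by
    rw [hpr, polar_sub_right, polar_sub_right, polar_smul_right, polar_smul_right, hyp.pair',
      hyp.polar_right]; simp
  let l0 : W →ₗ[F] W := (polarBilin QW w').smulRight w + (polarBilin QW w).smulRight (c⁻¹ • w') + pr ∘ₗ h ∘ₗ pr
  have hl0 : ∀ z, l0 z = polar QW w' z • w + polar QW w z • c⁻¹ • w' + pr (h (pr z)) := fun z => rfl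
  have hprh : ∀ z, pr (h (pr z)) = h (pr z) - polar QW w' (h (pr z)) • w := by
    intro z
    rw [hpr, hhw _ (hprw z), zero_smul, sub_zero]
  have hl0form : ∀ z z', polar QW (l0 z) (l0 z') = c⁻¹ * polar QW z z' := by
    intro z z'
    have e1 : polar QW (pr (h (pr z))) (pr (h (pr z'))) = c⁻¹ * polar QW (pr z) (pr z') := by
      rw [hprh, hprh]
      simp only [polar_sub_left, polar_sub_right, polar_smul_left, polar_smul_right, polar_self_of_sing hw,
        hhw _ (hprw z'), polar_comm QW _ w, hhw _ (hprw z)]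
      rw [hhform _ _ (hprw z) (hprw z')]
      simp
    have e2 : polar QW (pr z) (pr z') = polar QW z z' - polar QW w' z' * polar QW w z -
        polar QW w z' * polar QW w' z := by
      rw [hpr z']
      rw [polar_sub_right, polar_sub_right, polar_smul_right, polar_smul_right, polar_comm QW (pr z) w,
        polar_comm QW (pr z) w', hprw, hprw', hpr z, polar_sub_left, polar_sub_left, polar_smul_left,
        polar_smul_left]
      simp only [smul_eq_mul]
      ring
    rw [hl0, hl0]
    simp only [polar_add_left, polar_add_right, polar_smul_left, polar_smul_right, polar_self_of_sing hw, hyp.pair,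
      hyp.pair', hyp.polar_right, hprw, hprw', polar_comm QW (pr _) w, polar_comm QW (pr _) w', e1, e2,
      smul_eq_mul]
    ring
  have hl0inj : Function.Injective l0 := by
    rw [← LinearMap.ker_eq_bot, LinearMap.ker_eq_bot']
    intro z hz
    refine S.ndW z fun y => ?_
    have h1 := hl0form z y
    rw [hz, polar_zero_left] at h1
    exact (mul_eq_zero.1 h1.symm).resolve_left (inv_ne_zero hc0)
  let k : U ≃ₗ[F] U := LinearEquiv.ofInjectiveEndo kA hkinj
  let l : W ≃ₗ[F] W := LinearEquiv.ofInjectiveEndo l0 hl0inj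
  have hk : ∀ u, k u = kA u := fun u => rfl
  have hl : ∀ z, l z = l0 z := fun z => rfl
  set g' : V ≃ₗ[F] V := tm S.ten k l with hg'
  have hg'O : g' ∈ O Q := S.tm_mem_O_of_sim hc0 (fun x y => by rw [hk, hk, hkform])
    (fun x y => by rw [hl, hl, hl0form])
  have hg't : ∀ u z, g' (t u z) = t (kA u) (l0 z) := fun u z => tm_apply _ _ _ _ _
  have hl0w : l0 w = w := by
    rw [hl0, hyp.pair', polar_self_of_sing hw]
    have : pr w = 0 := by rw [hpr, hyp.pair', polar_self_of_sing hw]; simp
    rw [this, map_zero, map_zero]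
    simp
  set r : V ≃ₗ[F] V := g'⁻¹ * g with hr
  have hgr : g = g' * r := by rw [hr, mul_inv_cancel_left]
  have hrO : r ∈ O Q := (O Q).mul_mem ((O Q).inv_mem hg'O) hgO
  have hr1 : ∀ u, r (t u w) = t u w := by
    intro u
    show g'⁻¹ (g (t u w)) = _
    have h1 : g (t u w) = g' (t u w) := by rw [hkA, hg't, hl0w]
    rw [h1]
    exact LinearEquiv.symm_apply_apply g' _
  have hr2 : ∀ u z, polar QW w z = 0 → ∃ u', r (t u z) = t u z + t u' w := by
    intro u z hz
    obtain ⟨a, ha⟩ := hmod u z hz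
    obtain ⟨b, hb⟩ := hksurj (a + polar QW w' (h (pr z)) • kA u)
    refine ⟨b, ?_⟩
    have e1 : z = pr z + polar QW w' z • w := by rw [hpr, hz]; module
    have e2 : h z = h (pr z) + polar QW w' z • w := by
      conv_lhs => rw [e1]
      rw [map_add, map_smul, hhw0]
    have e3 : g' (t u z + t b w) = g (t u z) := by
      rw [map_add, hg't, hg't, hl0w, hb, ha, hl0, hz, e2, hprh]
      simp only [map_add, map_sub, map_smul, LinearMap.add_apply, LinearMap.smul_apply, zero_smul, add_zero]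
      module
    show g'⁻¹ (g (t u z)) = _
    rw [← e3]
    exact LinearEquiv.symm_apply_apply g' _
  -- `r` is unipotent
  have hrperp : ∀ v, S.cw w v = 0 → ∃ u', r v = v + t u' w := by
    let τ : W →ₗ[F] U →ₗ[F] U := (t.flip).compr₂ (S.cw w' ∘ₗ ((r : V →ₗ[F] V) - LinearMap.id))
    have hτ : ∀ z u, τ z u = S.cw w' (r (t u z) - t u z) := fun z u => rfl
    have hrτ : IsR t QW w r τ := by
      refine ⟨hr1, fun u z hz => ?_⟩
      obtain ⟨u', hu'⟩ := hr2 u z hz
      have : τ z u = u' := by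
        rw [hτ, hu', add_sub_cancel_left, S.cw_t, hyp.pair', one_smul]
      rw [this]
      exact hu'
    intro v hv
    exact ⟨S.hat τ v, S.isR_apply hyp hrτ hv⟩
  have hrc : ∀ v, S.cw w (r v - v) = 0 := by
    intro v
    rw [S.cw_eq_zero_iff]
    intro u
    have h1 := polar_map hrO v (t u w)
    rw [hr1] at h1
    rw [polar_sub_left, h1, sub_self]
  obtain ⟨n, hn⟩ := exists_sq_of_cube S.two (g := r) (by
    intro v
    obtain ⟨u1, hu1⟩ := hrperp _ (hrc v)
    have e1 : r (r v) - r v = r v - v + t u1 w := by rw [← hu1, map_sub]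
    rw [e1]
    have e2 : r (r v - v + t u1 w) = r v - v + t u1 w + t u1 w := by rw [map_add, hu1, hr1]
    rw [e2, hu1]
    abel)
  have hrE : r ∈ E Q := by
    rw [hn]
    exact sq_mem_E hX.hG ((O Q).pow_mem hrO n)
  have hg'E : g' ∈ E Q := by
    have : g' = g * r⁻¹ := by rw [hgr, mul_inv_cancel_right]
    rw [this]
    exact (E Q).mul_mem (hX.le hg) ((E Q).inv_mem hrE)
  have hg'T : g' ∈ TT t S.ten := tm_mem_TT _ _ _
  have hg'X : g' ∈ X := hX.ge ⟨hg'T, hg'E⟩
  have hrX : r ∈ X := X.mul_mem (X.inv_mem hg'X) hg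
  obtain ⟨x, hx, hrx⟩ := S.rad_le hO hX.pU hX.exc hX.ne hw hw0 hrX hr1 hr2
  rw [hgr, hrx]
  exact (TT t S.ten).mul_mem hg'T (tm_mem_TT _ _ _)

end TSt

end Cfsg.Agent.H882.Ten
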